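import Cfsg.Agent.H9.K3

/-!
`J(T)`-components.
-/

set_option autoImplicit false
set_option linter.style.haveILetI false
set_option linter.unusedSectionVars false

namespace Cfsg.H9

open Subgroup
open Cfsg.H7 (cj mem_cj stab)
open scoped commutatorElement

universe u

variable {G : Type u} [Group G]

/-- the defining properties of a `J(T)`-component, in terms of `J = J(T)` only -/
structure JC (J K : Subgroup G) : Prop where
  k3 : K3 K
  comm : ⁅K, J⁆ = K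
  syl : ∀ S : Subgroup G, H7.IsSylowIn 2 S (K ⊔ J) → J ≤ S → thompsonSubgroupOf 2 S = J
  card : Nat.card (wOf K) = 4

theorem closure_odd_eq (K : Subgroup G) :
    closure {g : G | g ∈ K ∧ Odd (orderOf g)} = pResidualOf 2 K := by
  rw [H7.pResidualOf_eq_closure]
  simp only [Nat.coprime_two_right]

theorem isJComponent_iff [Finite G] {T K : Subgroup G} :
    IsJComponent T K ↔ JC (thompsonSubgroupOf 2 T) K := by
  constructor
  · rintro ⟨h1, h2, h3, h4, h5, -⟩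
    exact ⟨⟨closure_odd_eq K ▸ h1, h3⟩, h2, fun S hS => h4 S (isSylowTwoIn_iff.mpr hS), h5⟩
  · intro h
    exact ⟨(closure_odd_eq K).trans h.k3.res, h.comm, h.k3.idx,
      fun S hS => h.syl S (isSylowTwoIn_iff.mp hS), h.card, fun w hw => by
        rw [← sq]; exact (H7.isElementaryAbelian_iff.mp (ea_wOf K)).2 w hw⟩

theorem isJComponent_congr [Finite G] {T T' K : Subgroup G}
    (e : thompsonSubgroupOf 2 T = thompsonSubgroupOf 2 T') :
    IsJComponent T K ↔ IsJComponent T' K := by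
  rw [isJComponent_iff, isJComponent_iff, e]

namespace JC

variable [Finite G] {J K : Subgroup G}

theorem cj (h : JC J K) (g : G) : JC (cj g J) (cj g K) where
  k3 := h.k3.cj g
  comm := by rw [← H7.cj_commutator, h.comm]
  syl S hS hJ := by
    have := h.syl (H7.cj g⁻¹ S) (by
      have := hS.cj g⁻¹
      rwa [← H7.cj_sup, H7.cj_inv_cj] at this) (H7.cj_le_iff.mp hJ)
    rw [← this, cj_J, H7.cj_cj_inv]
  card := by rw [← cj_wOf, H7.card_cj, h.card]

theorem cj_of_mem (h : JC J K) {g : G} (hg : g ∈ normalizer (J : Set G)) : JC J (H7.cj g K) := by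
  have := h.cj g
  rwa [H7.cj_eq_of_mem_normalizer hg] at this

theorem cj_of_mem' (h : JC J K) {g : G} (hg : g ∈ normalizer (K : Set G)) : JC (H7.cj g J) K := by
  have := h.cj g
  rwa [H7.cj_eq_of_mem_normalizer hg] at this

theorem le_normalizer (h : JC J K) : J ≤ normalizer (K : Set G) := by
  conv_rhs => rw [← h.comm]
  exact le_normalizer_commutator_self

theorem le_normalizer_wOf (h : JC J K) : J ≤ normalizer (wOf K : Set G) :=
  h.le_normalizer.trans (normalizer_le_normalizer_wOf K)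

theorem not_le_stab (h : JC J K) : ¬ J ≤ stab K (pCoreOf 2 K) :=
  fun hle => h.k3.not_le (h.comm.ge.trans (H7.le_stab_iff.mp hle).2)

theorem wOf_ne_bot (h : JC J K) : wOf K ≠ ⊥ := K3.ne_bot_of_card h.card

theorem le_of_normal (h : JC J K) {N : Subgroup G} (h1 : J ≤ N) (h2 : K ≤ normalizer (N : Set G)) :
    K ≤ N :=
  h.comm.ge.trans ((commutator_mono le_rfl h1).trans (H7.commutator_le_right_of_le_normalizer h2))

theorem not_le_centralizer (h : JC J K) : ¬ J ≤ centralizer (wOf K : Set G) := fun hle =>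
  h.wOf_ne_bot (eq_bot_iff.mpr (h.k3.wOf_inf ▸ le_inf le_rfl (le_centralizer_iff.mp
    (h.le_of_normal hle (H7.le_normalizer_centralizer (H9.le_normalizer_wOf K))))))

theorem not_le_pCoreOf (h : JC J K) {L : Subgroup G} (hK : K ≤ L) : ¬ J ≤ pCoreOf 2 L :=
  fun hle => h.k3.not_le' (H7.isPGroup_pCoreOf 2 L)
    (h.le_of_normal hle (hK.trans (H7.le_normalizer_pCoreOf 2 L)))

theorem normalizes (h : JC J K) (hJ : IsPGroup 2 J) {Q : Subgroup G}
    (h1 : K ≤ normalizer (Q : Set G)) (h2 : Q ≤ normalizer (J : Set G)) :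
    Q ≤ normalizer (K : Set G) := by
  have h3 := H7.le_normalizer_pResidualOf' 2 (le_normalizer_sup_commutator h1 h2)
  rwa [h.comm, H7.pResidualOf_sup_eq hJ h.le_normalizer, h.k3.res] at h3

section Sylow

theorem sup_eq (J K : Subgroup G) : K ⊔ (J ⊔ pCoreOf 2 K) = K ⊔ J := by
  rw [sup_comm J, ← sup_assoc, sup_eq_left.mpr (H7.pCoreOf_le 2 K)]

theorem sylow (h : JC J K) (hJ : IsPGroup 2 J) : H7.IsSylowIn 2 (J ⊔ pCoreOf 2 K) (K ⊔ J) := by
  have := h.k3.isSylowIn_sup (S := J ⊔ pCoreOf 2 K) (H7.isPGroup_sup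
    (H7.le_normalizer_pCoreOf' 2 h.le_normalizer) hJ (H7.isPGroup_pCoreOf 2 K))
    (sup_le h.le_normalizer ((H7.pCoreOf_le 2 K).trans Subgroup.le_normalizer)) le_sup_right
  rwa [sup_eq] at this

theorem J_sylow (h : JC J K) (hJ : IsPGroup 2 J) : thompsonSubgroupOf 2 (J ⊔ pCoreOf 2 K) = J :=
  h.syl _ (h.sylow hJ) le_sup_left

theorem sylow_le_normalizer (h : JC J K) : J ⊔ pCoreOf 2 K ≤ normalizer (K : Set G) :=
  sup_le h.le_normalizer ((H7.pCoreOf_le 2 K).trans Subgroup.le_normalizer)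

theorem pCoreOf_sup (h : JC J K) (hJ : IsPGroup 2 J) :
    pCoreOf 2 (K ⊔ J) = stab K (pCoreOf 2 K) ⊓ (J ⊔ pCoreOf 2 K) := by
  rw [← sup_eq]
  exact h.k3.pCoreOf_sup_eq (h.sylow hJ).isPGroup h.sylow_le_normalizer le_sup_right

theorem pCoreOf_sup_le_centralizer (h : JC J K) :
    pCoreOf 2 (K ⊔ J) ≤ centralizer (wOf K : Set G) :=
  h.k3.le_centralizer_wOf h.card (H7.isPGroup_pCoreOf 2 _)
    (le_sup_left.trans (H7.le_normalizer_pCoreOf 2 _))
    ((H7.pCoreOf_le 2 _).trans (sup_le (H9.le_normalizer_wOf K) h.le_normalizer_wOf))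

/-- an element of `𝒜(O₂(KJ))` containing `W_K` -/
theorem exists_maxEA (h : JC J K) (hJ : IsPGroup 2 J) :
    ∃ A, MaxEA 2 (J ⊔ pCoreOf 2 K) A ∧ ¬ A ≤ stab K (pCoreOf 2 K) ∧
      MaxEA 2 (J ⊔ pCoreOf 2 K) (wOf K ⊔ (A ⊓ pCoreOf 2 (K ⊔ J))) ∧
      A.relIndex (wOf K ⊔ (A ⊓ pCoreOf 2 (K ⊔ J))) ≤ 2 := by
  obtain ⟨A, hA, hn⟩ := exists_maxEA_not_le (p := 2) (T := J ⊔ pCoreOf 2 K)
    (K := stab K (pCoreOf 2 K)) (by rw [h.J_sylow hJ]; exact h.not_le_stab)
  have hAK := hA.le.trans h.sylow_le_normalizer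
  have hc : wOf K ≤ centralizer ((A ⊓ pCoreOf 2 (K ⊔ J) : Subgroup G) : Set G) :=
    le_centralizer_iff.mp (inf_le_right.trans h.pCoreOf_sup_le_centralizer)
  have e : A ⊓ pCoreOf 2 (K ⊔ J) = stab K (pCoreOf 2 K) ⊓ A := by
    rw [h.pCoreOf_sup hJ, inf_comm A, inf_assoc, inf_eq_right.mpr hA.le]
  have h1 := H7.card_sup_mul_card_inf (H7.le_normalizer_of_le_centralizer hc)
  have h2 := H7.relIndex_mul_card_inf (stab K (pCoreOf 2 K)) A
  have h3 := Nat.le_of_dvd two_pos (h.k3.relIndex_stab hAK)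
  rw [← e] at h2
  have h4 : Nat.card ↥(wOf K ⊓ (A ⊓ pCoreOf 2 (K ⊔ J))) ≤ 2 := by
    have h5 : ¬ wOf K ≤ A ⊓ pCoreOf 2 (K ⊔ J) := fun hle => h.wOf_ne_bot (eq_bot_iff.mpr
      (h.k3.wOf_inf ▸ le_inf le_rfl (le_centralizer_iff.mp (h.k3.le_of_normal hAK hn
        ((H7.ea_le_centralizer hA.ea).trans (H7.centralizer_anti (hle.trans inf_le_left)))
        (H7.le_normalizer_centralizer (H9.le_normalizer_wOf K))))))
    have h6 := H7.relIndex_mul_card_inf (A ⊓ pCoreOf 2 (K ⊔ J)) (wOf K)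
    have h7 : (A ⊓ pCoreOf 2 (K ⊔ J)).relIndex (wOf K) ≠ 1 := fun h1 => h5 (relIndex_eq_one.mp h1)
    have h8 := relIndex_pos (A ⊓ pCoreOf 2 (K ⊔ J)) (wOf K)
    rw [h.card, inf_comm _ (wOf K)] at h6
    have : 2 ≤ (A ⊓ pCoreOf 2 (K ⊔ J)).relIndex (wOf K) := by omega
    nlinarith
  rw [h.card] at h1
  have p1 : 0 < Nat.card ↥(A ⊓ pCoreOf 2 (K ⊔ J)) := Nat.card_pos
  have hle : wOf K ⊔ (A ⊓ pCoreOf 2 (K ⊔ J)) ≤ J ⊔ pCoreOf 2 K :=
    sup_le ((wOf_le_pCoreOf K).trans le_sup_right) (inf_le_left.trans hA.le)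
  have hea := ea_sup' (ea_wOf K) (H7.ea_mono hA.ea inf_le_left) hc
  refine ⟨A, hA, hn, hA.of_card_le hle hea (by nlinarith), ?_⟩
  have h5 := hA.max _ hle hea
  have h6 := H7.relIndex_mul_card_inf A (wOf K ⊔ (A ⊓ pCoreOf 2 (K ⊔ J)))
  have h7 : Nat.card ↥(A ⊓ pCoreOf 2 (K ⊔ J)) ≤
      Nat.card ↥(A ⊓ (wOf K ⊔ (A ⊓ pCoreOf 2 (K ⊔ J)))) :=
    card_le_of_le (le_inf inf_le_left le_sup_right)
  refine Nat.le_of_mul_le_mul_right ?_ p1
  nlinarith

theorem wOf_le_J (h : JC J K) (hJ : IsPGroup 2 J) : wOf K ≤ J := by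
  obtain ⟨A, -, -, h1, -⟩ := h.exists_maxEA hJ
  exact le_sup_left.trans (h1.le_J.trans (h.J_sylow hJ).le)

theorem omega_inf (h : JC J K) (hJ : IsPGroup 2 J) :
    omegaOneCenter 2 J ⊓ wOf K = wOf K ⊓ centralizer (J : Set G) :=
  le_antisymm (le_inf inf_le_right (inf_le_left.trans (H7.omegaOneCenter_le_centralizer 2 J)))
    (le_inf (H7.le_omegaOneCenter (inf_le_left.trans (h.wOf_le_J hJ)) inf_le_right
      fun v hv => (H7.isElementaryAbelian_iff.mp (ea_wOf K)).2 v hv.1) inf_le_left)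

theorem card_omega_inf (h : JC J K) (hJ : IsPGroup 2 J) :
    Nat.card ↥(omegaOneCenter 2 J ⊓ wOf K) = 2 := by
  rw [h.omega_inf hJ]
  have h1 := H7.inf_centralizer_ne_bot hJ (isPGroup_wOf K) h.le_normalizer_wOf h.wOf_ne_bot
  have h2 : Nat.card ↥(wOf K ⊓ centralizer (J : Set G)) ∣ 2 ^ 2 :=
    (card_dvd_card_of_le inf_le_left).trans (dvd_of_eq h.card)
  obtain ⟨k, hk, e⟩ := (Nat.dvd_prime_pow Nat.prime_two).mp h2
  interval_cases k
  · exact absurd (card_eq_one.mp e) h1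
  · exact e
  · exact absurd (le_centralizer_iff.mp ((H7.eq_of_le_of_card_le inf_le_left
      (by rw [e, h.card]; norm_num)).ge.trans inf_le_right)) h.not_le_centralizer

theorem relIndex_omega (h : JC J K) (hJ : IsPGroup 2 J) :
    (centralizer (K : Set G)).relIndex (omegaOneCenter 2 J) ≤ 2 := by
  obtain ⟨A, hA, hn, hB, hi⟩ := h.exists_maxEA hJ
  set S := J ⊔ pCoreOf 2 K with hS
  set Q := pCoreOf 2 (K ⊔ J) with hQ
  have hAK := hA.le.trans h.sylow_le_normalizer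
  have hQS : Q ≤ S := (h.sylow hJ).pCoreOf_le
  have hBQ : wOf K ⊔ (A ⊓ Q) ≤ Q := sup_le ((wOf_le_pCoreOf K).trans
    (K3.pCoreOf_le_sup h.le_normalizer)) inf_le_right
  have hPQ : K ⊔ J ≤ normalizer (Q : Set G) := H7.le_normalizer_pCoreOf 2 _
  obtain ⟨x, hx, hxA⟩ : ∃ x ∈ K, ¬ H7.cj x A ≤ S := by
    by_contra hc
    push Not at hc
    refine h.k3.not_le' (h.sylow hJ).isPGroup ?_
    exact (h.k3.comm_eq' hAK hn).ge.trans (le_sup_right.trans
      ((H7.iSup_cj_eq_sup_commutator K A).ge.trans (iSup_le fun r => hc r r.2)))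
  have hB' := (hB.mono hBQ hQS).cj_of_mem (hPQ (mem_sup_left hx))
  have hZ : omegaOneCenter 2 J ≤ H7.cj x (wOf K ⊔ (A ⊓ Q)) := by
    have := hB.of_le hBQ hQS hB'
    exact this.omegaOneCenter_le (this.le_J.trans (h.J_sylow hJ).le) le_sup_left
  have hi' : (H7.cj x A).relIndex (omegaOneCenter 2 J) ≤ 2 := by
    rw [← relIndex_cj x] at hi
    exact (relIndex_le_of_le_right hZ (relIndex_pos _ _).ne').trans hi
  have hX : K ≤ J ⊔ H7.cj x A := by
    have hxP : H7.cj x A ≤ K ⊔ J :=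
      H7.cj_le_of_le' (mem_sup_left hx) (hA.le.trans (h.sylow hJ).le)
    have h3 := h.k3.relIndex_sup (h.sylow hJ).isPGroup h.sylow_le_normalizer le_sup_right
    rw [sup_eq] at h3
    have h4 := (eq_or_eq_of_relIndex_prime (Z := (J ⊔ H7.cj x A) ⊔ Q) (h3 ▸ Nat.prime_three)
      (sup_le (le_sup_left.trans le_sup_left) ((K3.pCoreOf_le_sup h.le_normalizer).trans le_sup_right))
      (sup_le (sup_le le_sup_right hxP) (H7.pCoreOf_le 2 _))).resolve_left
      fun e => hxA (le_sup_right.trans (le_sup_left.trans e.le))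
    have h5 : Q ≤ normalizer ((J ⊔ ⁅J ⊔ H7.cj x A, J⁆ : Subgroup G) : Set G) :=
      le_normalizer_sup_commutator ((sup_le le_sup_right hxP).trans hPQ) (by
        rw [← h.J_sylow hJ]; exact hQS.trans (le_normalizer_J 2 S))
    exact (h.le_of_normal le_sup_left (le_sup_left.trans (h4.ge.trans
      (sup_le (H7.le_normalizer_sup_commutator _ _) h5)))).trans
      (sup_le le_sup_left (commutator_le_of_le le_rfl le_sup_left))
  refine le_trans ?_ hi'
  rw [← inf_relIndex_left _ (H7.cj x A)]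
  refine relIndex_le_of_le_left (le_trans ?_ (H7.centralizer_anti hX)) (relIndex_pos _ _).ne'
  rw [H7.centralizer_sup]
  exact inf_le_inf (H7.omegaOneCenter_le_centralizer 2 J) (H7.ea_le_centralizer (H7.ea_cj hA.ea x))

theorem omega_eq (h : JC J K) (hJ : IsPGroup 2 J) :
    (omegaOneCenter 2 J ⊓ centralizer (K : Set G)) ⊔ (omegaOneCenter 2 J ⊓ wOf K) =
      omegaOneCenter 2 J := by
  have h1 : ¬ omegaOneCenter 2 J ⊓ wOf K ≤ centralizer (K : Set G) := fun hle => by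
    have := h.card_omega_inf hJ
    rw [eq_bot_iff.mpr ((le_inf inf_le_right hle).trans h.k3.wOf_inf.le), card_bot] at this
    exact absurd this (by norm_num)
  have h2 : (centralizer (K : Set G)).relIndex (omegaOneCenter 2 J) = 2 := by
    have := h.relIndex_omega hJ
    have := relIndex_pos (centralizer (K : Set G)) (omegaOneCenter 2 J)
    have : (centralizer (K : Set G)).relIndex (omegaOneCenter 2 J) ≠ 1 :=
      fun e => h1 (inf_le_left.trans (relIndex_eq_one.mp e))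
    omega
  rw [← inf_relIndex_left] at h2
  exact (eq_or_eq_of_relIndex_prime (by rw [h2]; exact Nat.prime_two) le_sup_left
    (sup_le inf_le_left inf_le_left)).resolve_left
    fun e => h1 (le_sup_right.trans (e.le.trans inf_le_right))

end Sylow

end JC

/-- the failure-of-factorization set-up for `L` with Sylow subgroup `T`, acting on `Ω₁Z(O₂(L))` -/
structure JS (T L F : Subgroup G) : Prop where
  syl : H7.IsSylowIn 2 T L
  ffa : FFA (omegaOneCenter 2 (pCoreOf 2 L)) L (pCoreOf 2 L) F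
  cT : ⁅L ⊓ centralizer (omegaOneCenter 2 (pCoreOf 2 L) : Set G), T⁆ ≤ pCoreOf 2 L

theorem le_normalizer_V (L : Subgroup G) :
    L ≤ normalizer (omegaOneCenter 2 (pCoreOf 2 L) : Set G) :=
  (H7.le_normalizer_pCoreOf 2 L).trans (H7.normalizer_le_normalizer_omegaOneCenter 2 _)

theorem exists_js' [Finite G] {T L : Subgroup G} (hT : H7.IsSylowIn 2 T L)
    (hsol : Group.IsSolvable L)
    (hc : L ⊓ centralizer (omegaOneCenter 2 (pCoreOf 2 L) : Set G) ≤ normalizer (T : Set G)) :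
    ∃ F, JS T L F := by
  set C := L ⊓ centralizer (omegaOneCenter 2 (pCoreOf 2 L) : Set G) with hC
  have hCn : L ≤ normalizer (C : Set G) := H7.le_normalizer_inf (H7.le_normalizer_of_le le_rfl)
    (H7.le_normalizer_centralizer (le_normalizer_V L))
  have h1 := hT.inf_of_normal inf_le_left hCn
  have h2 : T ⊓ C ≤ pCoreOf 2 L := by
    rw [← h1.pCoreOf_eq (H7.le_normalizer_inf hc (H7.le_normalizer_of_le le_rfl))]
    exact H7.pCoreOf_le_of_normal inf_le_left hCn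
  obtain ⟨F, hF⟩ := exists_ffa hsol (H7.ea_omegaOneCenter 2 _) (le_normalizer_V L) rfl
    (H7.le_centralizer_omegaOneCenter 2 _) (odd_of_not_two_dvd fun hd =>
      h1.not_dvd_relIndex (hd.trans (relIndex_dvd_of_le_left _ h2)))
  exact ⟨F, hT, hF, (le_inf (H7.commutator_le_right_of_le_normalizer hc)
    (commutator_le_of_le_normalizer (hT.le.trans hCn))).trans h2⟩

theorem isSolvable_of_le_normalizer (hN : ∀ N : Subgroup G, IsTwoLocal N → Group.IsSolvable N)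
    {L Q : Subgroup G} (hQ : IsPGroup 2 Q) (h1 : Q ≠ ⊥) (h : L ≤ normalizer (Q : Set G)) :
    Group.IsSolvable L := isSolvable_of_le h (hN _ ⟨Q, hQ, h1, rfl⟩)

theorem exists_js [Finite G] (hN : ∀ N : Subgroup G, IsTwoLocal N → Group.IsSolvable N)
    (hZ : ∀ S : Sylow 2 G, centralizer (omegaCenterOf (S : Subgroup G) : Set G) ≤
      normalizer ((S : Subgroup G) : Set G)) {T L : Subgroup G} (hL : L ∈ jOvergroups T) :
    ∃ F, JS T L F := by
  obtain ⟨h1, h2, h3⟩ := hL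
  have hT := isSylowTwoIn_iff.mp h1
  refine exists_js' hT (isSolvable_of_le_normalizer hN (H7.isPGroup_pCoreOf 2 L) (fun e => h2 ?_)
    (H7.le_normalizer_pCoreOf 2 L)) ?_
  · rw [e, H7.centralizer_bot'] at h3
    exact le_top.trans (h3.trans bot_le)
  obtain ⟨S, hS⟩ := hT.isPGroup.exists_le_sylow
  have h4 : omegaOneCenter 2 (S : Subgroup G) ≤ omegaOneCenter 2 (pCoreOf 2 L) := by
    have h5 := (H7.omegaOneCenter_le_centralizer 2 (S : Subgroup G)).trans
      (H7.centralizer_anti (hT.pCoreOf_le.trans hS))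
    exact H7.le_omegaOneCenter (h5.trans h3) h5 fun v hv => (H7.mem_omegaOneCenter_iff.mp hv).2.2
  rw [← hT.inf_eq S.isPGroup' hS]
  exact H7.le_normalizer_inf (inf_le_right.trans ((H7.centralizer_anti h4).trans (hZ S)))
    (H7.le_normalizer_of_le inf_le_left)

namespace JS

variable [Finite G] {T L F : Subgroup G}

theorem Qp (L : Subgroup G) : IsPGroup 2 (pCoreOf 2 L) := H7.isPGroup_pCoreOf 2 L

theorem Jp (h : JS T L F) : IsPGroup 2 (thompsonSubgroupOf 2 T) := isPGroup_J h.syl.isPGroup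

theorem JL (h : JS T L F) : thompsonSubgroupOf 2 T ≤ L := (J_le 2 T).trans h.syl.le

theorem QJ (h : JS T L F) : pCoreOf 2 L ≤ normalizer (thompsonSubgroupOf 2 T : Set G) :=
  h.syl.pCoreOf_le.trans (le_normalizer_J 2 T)

theorem R_le (h : JS T L F) {t : G} (ht : t ∈ L) : RA F (pCoreOf 2 L) t ≤ F :=
  sup_le (commutator_le_of_le_normalizer ((zpowers_le.mpr ht).trans h.ffa.Fn)) h.ffa.QF

theorem sylQ (h : JS T L F) : H7.IsSylowIn 2 (pCoreOf 2 L) F :=
  H7.isSylowIn_of_not_dvd_relIndex (Qp L) h.ffa.QF (not_two_dvd_of_odd h.ffa.Fodd)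

theorem le_Q (h : JS T L F) {X : Subgroup G} (hX : IsPGroup 2 X) (hF : X ≤ F) :
    X ≤ pCoreOf 2 L :=
  h.sylQ.le_of_le_normalizer hX hF (hF.trans (h.ffa.FL.trans (H7.le_normalizer_pCoreOf 2 L)))

theorem pCoreOf_eq (h : JS T L F) {K : Subgroup G} (hK : K ≤ F) :
    pCoreOf 2 K = pCoreOf 2 L ⊓ K :=
  le_antisymm (le_inf (h.le_Q (Qp K) ((H7.pCoreOf_le 2 K).trans hK)) (H7.pCoreOf_le 2 K))
    (H7.pCoreOf_inf_le (hK.trans h.ffa.FL))

theorem J_le_closure (h : JS T L F) : thompsonSubgroupOf 2 T ≤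
    closure {t | t ∈ thompsonSubgroupOf 2 T ∧ TvA (omegaOneCenter 2 (pCoreOf 2 L)) L (pCoreOf 2 L) t}
      ⊔ pCoreOf 2 L := by
  refine J_le_iff.mpr fun A hA => (h.ffa.gen A (hA.le.trans h.syl.le) hA.ea
    (hA.best ((H7.omegaOneCenter_le 2 _).trans h.syl.pCoreOf_le) (H7.ea_omegaOneCenter 2 _))
    ((commutator_mono le_rfl hA.le).trans h.cT)).trans (sup_le_sup_right (Subgroup.closure_mono ?_) _)
  exact fun t ht => ⟨hA.le_J ht.1, ht.2⟩

theorem J_le_of (h : JS T L F) {X : Subgroup G} (h1 : pCoreOf 2 L ≤ X)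
    (h2 : ∀ t ∈ thompsonSubgroupOf 2 T,
      TvA (omegaOneCenter 2 (pCoreOf 2 L)) L (pCoreOf 2 L) t → t ∈ X) :
    thompsonSubgroupOf 2 T ≤ X :=
  h.J_le_closure.trans (sup_le ((closure_le _).mpr fun t ht => h2 t ht.1 ht.2) h1)

section Kt

variable {t : G}

theorem F_le_normalizer_R (h : JS T L F)
    (ht : TvA (omegaOneCenter 2 (pCoreOf 2 L)) L (pCoreOf 2 L) t) :
    F ≤ normalizer (RA F (pCoreOf 2 L) t : Set G) :=
  H7.le_normalizer_of_commutator_le le_rfl ((h.ffa.commR t ht).trans le_sup_right)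

theorem J_le_normalizer_R (h : JS T L F)
    (ht : TvA (omegaOneCenter 2 (pCoreOf 2 L)) L (pCoreOf 2 L) t) :
    thompsonSubgroupOf 2 T ≤ normalizer (RA F (pCoreOf 2 L) t : Set G) :=
  h.J_le_of (H7.le_normalizer_of_le le_sup_right) fun s _ hs => h.ffa.normR t s ht hs

theorem Kt_le (h : JS T L F) (ht : t ∈ L) : pResidualOf 2 (RA F (pCoreOf 2 L) t) ≤ F :=
  (H7.pResidualOf_le 2 _).trans (h.R_le ht)

theorem Q_sup_Kt (h : JS T L F) (ht : t ∈ L) :
    pCoreOf 2 L ⊔ pResidualOf 2 (RA F (pCoreOf 2 L) t) = RA F (pCoreOf 2 L) t :=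
  (h.sylQ.mono le_sup_right (h.R_le ht)).sup_pResidualOf

theorem k3 (h : JS T L F) (ht : TvA (omegaOneCenter 2 (pCoreOf 2 L)) L (pCoreOf 2 L) t) :
    K3 (pResidualOf 2 (RA F (pCoreOf 2 L) t)) := by
  refine ⟨H7.pResidualOf_pResidualOf 2 _, ?_⟩
  rw [h.pCoreOf_eq (h.Kt_le ht.mem), inf_relIndex_right, ← h.ffa.relR t ht,
    ← H7.relIndex_sup_of_le_normalizer ((h.Kt_le ht.mem).trans (h.ffa.FL.trans
      (H7.le_normalizer_pCoreOf 2 L))), sup_comm, h.Q_sup_Kt ht.mem]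

theorem comm_Kt (h : JS T L F) (ht : t ∈ L) :
    ⁅omegaOneCenter 2 (pCoreOf 2 L), pResidualOf 2 (RA F (pCoreOf 2 L) t)⁆ =
      ⁅omegaOneCenter 2 (pCoreOf 2 L), RA F (pCoreOf 2 L) t⁆ := by
  conv_rhs => rw [← h.Q_sup_Kt ht, sup_comm]
  exact (H7.commutator_sup_of_le_centralizer ((h.Kt_le ht).trans (h.ffa.FL.trans
    (le_normalizer_V L))) (H7.le_centralizer_omegaOneCenter 2 _)).symm

theorem not_mem_stab (h : JS T L F) (ht : TvA (omegaOneCenter 2 (pCoreOf 2 L)) L (pCoreOf 2 L) t) :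
    ¬ zpowers t ≤ stab (pResidualOf 2 (RA F (pCoreOf 2 L) t))
      (pCoreOf 2 (pResidualOf 2 (RA F (pCoreOf 2 L) t))) := by
  intro hle
  refine h.ffa.invR t ht ?_
  conv_lhs => rw [← h.Q_sup_Kt ht.mem]
  exact H7.sup_commutator_le (H7.le_normalizer_of_le le_rfl)
    ((h.Kt_le ht.mem).trans (h.ffa.FL.trans (H7.le_normalizer_pCoreOf 2 L)))
    (commutator_le_of_le_normalizer ((zpowers_le.mpr ht.mem).trans (H7.le_normalizer_pCoreOf 2 L)))
    ((H7.le_stab_iff.mp hle).2.trans ((h.pCoreOf_eq (h.Kt_le ht.mem)).le.trans inf_le_left))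

theorem commutator_le_wOf' (h : JS T L F) {K : Subgroup G} (hK : K3 K) (hF : K ≤ F)
    (hQ : pCoreOf 2 L ≤ normalizer (K : Set G)) : ⁅omegaOneCenter 2 (pCoreOf 2 L), K⁆ ≤ wOf K :=
  hK.commutator_le_wOf (H7.ea_omegaOneCenter 2 _) (hF.trans (h.ffa.FL.trans (le_normalizer_V L)))
    ((H7.omegaOneCenter_le 2 _).trans hQ) (((h.pCoreOf_eq hF).le.trans inf_le_left).trans
      (H7.le_centralizer_omegaOneCenter 2 _))

theorem jc (h : JS T L F) (htJ : t ∈ thompsonSubgroupOf 2 T)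
    (ht : TvA (omegaOneCenter 2 (pCoreOf 2 L)) L (pCoreOf 2 L) t) :
    JC (thompsonSubgroupOf 2 T) (pResidualOf 2 (RA F (pCoreOf 2 L) t)) := by
  have hk := h.k3 ht
  have hJ := H7.le_normalizer_pResidualOf' 2 (h.J_le_normalizer_R ht)
  have hn : ¬ thompsonSubgroupOf 2 T ≤ _ :=
    fun hle => h.not_mem_stab ht ((zpowers_le.mpr htJ).trans hle)
  have hKF := h.Kt_le ht.mem
  refine ⟨hk, hk.comm_eq' hJ hn, fun S hS hJS => ?_, le_antisymm ?_ ?_⟩
  · obtain ⟨g, -, hg⟩ := h.syl.exists_le_cj hS.isPGroup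
      (hS.le.trans (sup_le (hKF.trans h.ffa.FL) h.JL))
    exact J_eq_of_le_cj hJS hg
  · obtain ⟨A, hA, hA'⟩ := exists_maxEA_not_le hn
    have hAK := hA.le_J.trans hJ
    exact hk.card_le_four hAK hA' hA.ea (ea_wOf _) (le_normalizer_wOf _)
      (hAK.trans (normalizer_le_normalizer_wOf _)) (pCoreOf_le_centralizer_wOf _) hk.wOf_comm
      (hA.best ((wOf_le_pCoreOf _).trans (((h.pCoreOf_eq hKF).le.trans inf_le_left).trans
        h.syl.pCoreOf_le)) (ea_wOf _))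
  · rw [← h.ffa.cardW t ht, ← h.comm_Kt ht.mem]
    exact card_le_of_le (h.commutator_le_wOf' hk hKF
      (H7.le_normalizer_pResidualOf' 2 (H7.le_normalizer_of_le le_sup_right)))

end Kt

/-- the normal subgroup generated by `F` and all transvections -/
theorem exists_normal (h : JS T L F) : ∃ Y : Subgroup G, thompsonSubgroupOf 2 T ≤ Y ∧ F ≤ Y ∧
    Y ≤ L ∧ L ≤ normalizer (Y : Set G) ∧ ∀ y ∈ Y, y * y ∈ F := by
  set S := {t | TvA (omegaOneCenter 2 (pCoreOf 2 L)) L (pCoreOf 2 L) t} with hS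
  have hX : closure S ≤ L := (closure_le _).mpr fun t ht => ht.mem
  have hXn : L ≤ normalizer (closure S : Set G) := by
    rw [H7.le_normalizer_iff_cj]
    intro g hg
    rw [H7.cj_closure]
    refine closure_mono ?_
    rintro _ ⟨t, ht, rfl⟩
    exact ht.conj (le_normalizer_V L) (H7.le_normalizer_pCoreOf 2 L) hg
  have hXX : ⁅closure S, closure S⁆ ≤ F := by
    refine commutator_closure_le fun s hs => ⟨h.ffa.Fn hs.mem, fun x hx => ?_⟩
    have : ⁅zpowers s, closure S⁆ ≤ F := commutator_closure_le fun t ht =>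
      ⟨h.ffa.Fn ht.mem, fun y hy => commutator_zpowers_le (h.ffa.Fn hs.mem) (h.ffa.Fn ht.mem)
        (h.ffa.commF s t hs ht) (commutator_mem_commutator hy (mem_zpowers t))⟩
    exact this (H7.commutator_mem_commutator' (mem_zpowers s) hx)
  have hsq : ∀ x ∈ closure S, x * x ∈ F := by
    intro x hx
    induction hx using closure_induction with
    | mem t ht => exact h.ffa.QF ht.sq
    | one => rw [one_mul]; exact one_mem _
    | mul x y hx hy ihx ihy =>
      have := mul_mem (mul_mem ihx (hXX (commutator_mem_commutator (inv_mem hx) hy))) ihy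
      convert this using 1
      simp only [commutatorElement_def]
      group
    | inv x _ ih => rw [← mul_inv_rev]; exact inv_mem ih
  refine ⟨closure S ⊔ F, h.J_le_of (h.ffa.QF.trans le_sup_right)
    fun t _ ht => mem_sup_left (subset_closure ht), le_sup_right, sup_le hX h.ffa.FL,
    H7.le_normalizer_sup hXn h.ffa.Fn, fun y hy => ?_⟩
  obtain ⟨x, hx, f, hf, rfl⟩ := (H7.mem_sup_of_le_normalizer (hX.trans h.ffa.Fn)).mp hy
  have := mul_mem (mul_mem (hsq x hx)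
    ((mem_normalizer_iff.mp (h.ffa.Fn (inv_mem (hX hx))) f).mp hf)) hf
  convert this using 1
  group

theorem le_F (h : JS T L F) {K : Subgroup G} (hKL : K ≤ L) (hr : pResidualOf 2 K = K)
    (hc : ⁅K, thompsonSubgroupOf 2 T⁆ = K) : K ≤ F := by
  obtain ⟨Y, h1, -, -, h4, h5⟩ := h.exists_normal
  have : K ≤ Y := hc.ge.trans ((commutator_mono le_rfl h1).trans
    (H7.commutator_le_right_of_le_normalizer (hKL.trans h4)))
  exact hr.ge.trans (H7.pResidualOf_le_of_pow_mem fun x hx => ⟨1, by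
    rw [pow_one, sq]; exact h5 x (this hx)⟩)

/-- the components inside `L` are the groups `O²([F,t]Q)` -/
theorem exists_eq' (h : JS T L F) {K : Subgroup G} (hKL : K ≤ L) (hk : K3 K)
    (hc : ⁅K, thompsonSubgroupOf 2 T⁆ = K) :
    ∃ t ∈ thompsonSubgroupOf 2 T, TvA (omegaOneCenter 2 (pCoreOf 2 L)) L (pCoreOf 2 L) t ∧
      K = pResidualOf 2 (RA F (pCoreOf 2 L) t) := by
  have hKF := h.le_F hKL hk.res hc
  have hKQ := hKL.trans (H7.le_normalizer_pCoreOf 2 L)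
  have hJK : thompsonSubgroupOf 2 T ≤ normalizer (K : Set G) := by
    conv_rhs => rw [← hc]
    exact le_normalizer_commutator_self
  have hQK : pCoreOf 2 L ≤ normalizer (K : Set G) := by
    have h3 := H7.le_normalizer_pResidualOf' 2 (le_normalizer_sup_commutator hKQ h.QJ)
    rwa [hc, H7.pResidualOf_sup_eq h.Jp hJK, hk.res] at h3
  obtain ⟨t, htJ, ht, hn⟩ : ∃ t ∈ thompsonSubgroupOf 2 T,
      TvA (omegaOneCenter 2 (pCoreOf 2 L)) L (pCoreOf 2 L) t ∧ t ∉ stab K (pCoreOf 2 L) := by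
    by_contra hn
    push Not at hn
    exact hk.not_le' (Qp L) (hc.ge.trans (H7.le_stab_iff.mp (h.J_le_of (H7.le_stab_iff.mpr
      ⟨H7.le_normalizer_of_le le_rfl, H7.commutator_le_right_of_le_normalizer hKQ⟩) hn)).2)
  refine ⟨t, htJ, ht, ?_⟩
  have h1 : ¬ ⁅K, zpowers t⁆ ≤ pCoreOf 2 L := fun hle => hn (zpowers_le.mp (H7.le_stab_iff.mpr
    ⟨(zpowers_le.mpr ht.mem).trans (H7.le_normalizer_pCoreOf 2 L), hle⟩))
  have h2 : ⁅K, zpowers t⁆ = K := hk.comm_eq ((zpowers_le.mpr htJ).trans hJK)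
    fun hle => h1 (hle.trans ((h.pCoreOf_eq hKF).le.trans inf_le_left))
  have h3 : pCoreOf 2 L ⊔ K = RA F (pCoreOf 2 L) t :=
    (eq_or_eq_of_relIndex_prime (by rw [h.ffa.relR t ht]; exact Nat.prime_three) le_sup_left
      (sup_le le_sup_right (h2.ge.trans ((commutator_mono hKF le_rfl).trans le_sup_left)))).resolve_left
      fun e => hk.not_le' (Qp L) (le_sup_right.trans e.le)
  rw [← h3, H7.pResidualOf_sup_eq (Qp L) hQK, hk.res]

theorem jc_of (h : JS T L F) {K : Subgroup G} (hKL : K ≤ L) (hk : K3 K)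
    (hc : ⁅K, thompsonSubgroupOf 2 T⁆ = K) : JC (thompsonSubgroupOf 2 T) K := by
  obtain ⟨t, h1, h2, rfl⟩ := h.exists_eq' hKL hk hc
  exact h.jc h1 h2

section Comp

variable {K K' : Subgroup G}

theorem exists_eq (h : JS T L F) (hKL : K ≤ L) (hK : JC (thompsonSubgroupOf 2 T) K) :
    ∃ t ∈ thompsonSubgroupOf 2 T, TvA (omegaOneCenter 2 (pCoreOf 2 L)) L (pCoreOf 2 L) t ∧
      K = pResidualOf 2 (RA F (pCoreOf 2 L) t) := h.exists_eq' hKL hK.k3 hK.comm

theorem comp_le_F (h : JS T L F) (hKL : K ≤ L) (hK : JC (thompsonSubgroupOf 2 T) K) : K ≤ F :=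
  h.le_F hKL hK.k3.res hK.comm

theorem F_le_normalizer (h : JS T L F) (hKL : K ≤ L) (hK : JC (thompsonSubgroupOf 2 T) K) :
    F ≤ normalizer (K : Set G) := by
  obtain ⟨t, -, h2, rfl⟩ := h.exists_eq hKL hK
  exact H7.le_normalizer_pResidualOf' 2 (h.F_le_normalizer_R h2)

theorem Q_le_normalizer (h : JS T L F) (hKL : K ≤ L) (hK : JC (thompsonSubgroupOf 2 T) K) :
    pCoreOf 2 L ≤ normalizer (K : Set G) := h.ffa.QF.trans (h.F_le_normalizer hKL hK)

theorem pCoreOf_le (h : JS T L F) (hKL : K ≤ L) (hK : JC (thompsonSubgroupOf 2 T) K) :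
    pCoreOf 2 K ≤ pCoreOf 2 L := (h.pCoreOf_eq (h.comp_le_F hKL hK)).le.trans inf_le_left

theorem sn (h : JS T L F) (hKL : K ≤ L) (hK : JC (thompsonSubgroupOf 2 T) K) : L0.SN K L :=
  (L0.SN.of_normal (h.comp_le_F hKL hK) (h.F_le_normalizer hKL hK)).trans
    (L0.SN.of_normal h.ffa.FL h.ffa.Fn)

theorem wOf_eq (h : JS T L F) (hKL : K ≤ L) (hK : JC (thompsonSubgroupOf 2 T) K) :
    wOf K = ⁅omegaOneCenter 2 (pCoreOf 2 L), K⁆ := by
  refine (H7.eq_of_le_of_card_le (h.commutator_le_wOf' hK.k3 (h.comp_le_F hKL hK)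
    (h.Q_le_normalizer hKL hK)) ?_).symm
  rw [hK.card]
  obtain ⟨t, -, h2, rfl⟩ := h.exists_eq hKL hK
  rw [h.comm_Kt h2.mem, h.ffa.cardW t h2]

theorem wOf_le_V (h : JS T L F) (hKL : K ≤ L) (hK : JC (thompsonSubgroupOf 2 T) K) :
    wOf K ≤ omegaOneCenter 2 (pCoreOf 2 L) := by
  rw [h.wOf_eq hKL hK]
  exact commutator_le_of_le_normalizer (hKL.trans (le_normalizer_V L))

theorem le_normalizer_comp (h : JS T L F) (hKL : K ≤ L) (hK : JC (thompsonSubgroupOf 2 T) K)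
    (hKL' : K' ≤ L) (hK' : JC (thompsonSubgroupOf 2 T) K') : K' ≤ normalizer (K : Set G) :=
  (h.comp_le_F hKL' hK').trans (h.F_le_normalizer hKL hK)

theorem pair (h : JS T L F) (hKL : K ≤ L) (hK : JC (thompsonSubgroupOf 2 T) K)
    (hKL' : K' ≤ L) (hK' : JC (thompsonSubgroupOf 2 T) K') (hne : K ≠ K') :
    wOf K ⊓ wOf K' = ⊥ ∧ K' ≤ centralizer (wOf K : Set G) := by
  rw [h.wOf_eq hKL hK, h.wOf_eq hKL' hK']
  obtain ⟨s, -, hs, rfl⟩ := h.exists_eq hKL hK
  obtain ⟨t, -, ht, rfl⟩ := h.exists_eq hKL' hK'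
  have := h.ffa.pair s t hs ht fun e => hne (by rw [e])
  rw [h.comm_Kt hs.mem, h.comm_Kt ht.mem]
  exact ⟨this.1, (H7.pResidualOf_le 2 _).trans this.2.1⟩

theorem eq_of_inf_ne_bot (h : JS T L F) (hKL : K ≤ L) (hK : JC (thompsonSubgroupOf 2 T) K)
    (hKL' : K' ≤ L) (hK' : JC (thompsonSubgroupOf 2 T) K') (hne : wOf K ⊓ wOf K' ≠ ⊥) : K = K' := by
  by_contra e
  exact hne (h.pair hKL hK hKL' hK' e).1

/-- the factorization `L = ⟨components⟩ N_L(J(T))` -/
theorem le_sup (h : JS T L F) : L ≤ sSup {K | K ≤ L ∧ JC (thompsonSubgroupOf 2 T) K} ⊔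
    (L ⊓ normalizer (thompsonSubgroupOf 2 T : Set G)) := by
  set E := sSup {K | K ≤ L ∧ JC (thompsonSubgroupOf 2 T) K} with hE
  have hQ : pCoreOf 2 L ≤ L ⊓ normalizer (thompsonSubgroupOf 2 T : Set G) :=
    le_inf (H7.pCoreOf_le 2 L) h.QJ
  have hN : ∀ X, thompsonSubgroupOf 2 T ≤ X → X ≤ T → L ⊓ normalizer (X : Set G) ≤
      L ⊓ normalizer (thompsonSubgroupOf 2 T : Set G) := fun X h1 h2 => inf_le_inf_left _ (by
    rw [← J_eq_of_le h1 h2]; exact normalizer_le_normalizer_J 2 X)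
  have hEF : E ⊔ pCoreOf 2 L ≤ F := sup_le (sSup_le fun K hK => h.comp_le_F hK.1 hK.2) h.ffa.QF
  have h1 : ⁅F, thompsonSubgroupOf 2 T⁆ ≤ E ⊔ pCoreOf 2 L := by
    refine (H7.le_stab_iff.mp (h.J_le_of (H7.le_stab_iff.mpr ⟨H7.le_normalizer_of_le le_sup_right,
      (H7.commutator_le_right_of_le_normalizer (h.ffa.FL.trans
        (H7.le_normalizer_pCoreOf 2 L))).trans le_sup_right⟩) fun t htJ ht => ?_)).2
    have h2 : ⁅F, zpowers t⁆ ≤ E ⊔ pCoreOf 2 L := by
      refine le_sup_left.trans ((h.Q_sup_Kt ht.mem).ge.trans (sup_le le_sup_right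
        (le_sup_of_le_left (le_sSup ⟨(h.Kt_le ht.mem).trans h.ffa.FL, h.jc htJ ht⟩))))
    exact zpowers_le.mp (H7.le_stab_iff.mpr ⟨H7.le_normalizer_of_commutator_le hEF h2, h2⟩)
  have h2 : F ≤ E ⊔ (L ⊓ normalizer (thompsonSubgroupOf 2 T : Set G)) :=
    (h.ffa.cop _ h.JL h.Jp).trans (sup_le (h1.trans (sup_le_sup_left hQ _)) (le_sup_of_le_right
      (hN _ le_sup_left (sup_le (J_le 2 T) h.syl.pCoreOf_le))))
  obtain ⟨Y, hJY, hFY, hYL, hYn, hsq⟩ := h.exists_normal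
  have h3 := h.syl.inf_of_normal hYL hYn
  conv_lhs => rw [← h3.frattini hYL hYn]
  refine sup_le ((h3.le_sup_of_pow_mem (hYL.trans h.ffa.Fn) fun x hx => ⟨1, by
    rw [pow_one, sq]; exact hsq x hx⟩).trans (sup_le (le_sup_of_le_right ?_) h2))
    (le_sup_of_le_right (hN _ (le_inf (J_le 2 T) hJY) inf_le_left))
  exact inf_le_left.trans (le_inf h.syl.le (le_normalizer_J 2 T))

/-- `L` permutes the components it contains -/
theorem jc_cj (h : JS T L F) (hKL : K ≤ L) (hK : JC (thompsonSubgroupOf 2 T) K) {g : G}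
    (hg : g ∈ L) : JC (thompsonSubgroupOf 2 T) (cj g K) := by
  have hE : sSup {K | K ≤ L ∧ JC (thompsonSubgroupOf 2 T) K} ≤ F :=
    sSup_le fun K hK => h.comp_le_F hK.1 hK.2
  obtain ⟨n, hn, f, hf, rfl⟩ := (H7.mem_sup_of_le_normalizer (inf_le_left.trans h.ffa.Fn)).mp
    ((h.le_sup.trans ((sup_le_sup_right hE _).trans (sup_comm _ _).le)) hg)
  rw [H7.cj_mul, H7.cj_eq_of_mem_normalizer (h.F_le_normalizer hKL hK hf)]
  exact hK.cj_of_mem hn.2

theorem mem_normalizer_of_inf (h : JS T L F) (hKL : K ≤ L) (hK : JC (thompsonSubgroupOf 2 T) K)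
    {g : G} (hg : g ∈ L) (hne : wOf K ⊓ cj g (wOf K) ≠ ⊥) : g ∈ normalizer (K : Set G) := by
  rw [H7.mem_normalizer_iff_cj]
  rw [cj_wOf] at hne
  exact (h.eq_of_inf_ne_bot hKL hK (H7.cj_le_of_le' hg hKL) (h.jc_cj hKL hK hg) hne).symm

theorem exists_comp (h : JS T L F) (hJ : ¬ thompsonSubgroupOf 2 T ≤ pCoreOf 2 L) :
    ∃ K ≤ L, JC (thompsonSubgroupOf 2 T) K := by
  by_contra hn
  exact hJ (h.J_le_of le_rfl fun t htJ ht =>
    (hn ⟨_, (h.Kt_le ht.mem).trans h.ffa.FL, h.jc htJ ht⟩).elim)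

theorem act (h : JS T L F) (hKL : K ≤ L) (hK : JC (thompsonSubgroupOf 2 T) K) :
    wOf K ⊔ (omegaOneCenter 2 (pCoreOf 2 L) ⊓ centralizer (K : Set G)) =
      omegaOneCenter 2 (pCoreOf 2 L) ∧
    (centralizer (K : Set G)).relIndex (omegaOneCenter 2 (pCoreOf 2 L)) = 4 := by
  have := hK.k3.act (H7.ea_le_centralizer (H7.ea_omegaOneCenter 2 (pCoreOf 2 L)))
    (H7.ea_isPGroup (H7.ea_omegaOneCenter 2 _)) (hKL.trans (le_normalizer_V L))
    ((h.pCoreOf_le hKL hK).trans (H7.le_centralizer_omegaOneCenter 2 _))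
  rw [← h.wOf_eq hKL hK, hK.card] at this
  exact ⟨this.1, this.2.2.symm⟩

theorem inf_centralizer_Kt (h : JS T L F) {t : G} (htJ : t ∈ thompsonSubgroupOf 2 T)
    (ht : TvA (omegaOneCenter 2 (pCoreOf 2 L)) L (pCoreOf 2 L) t) :
    omegaOneCenter 2 (pCoreOf 2 L) ⊓
      centralizer ((pResidualOf 2 (RA F (pCoreOf 2 L) t) : Subgroup G) : Set G) ≤
      centralizer {t} := by
  have hK := h.jc htJ ht
  have hKL := (h.Kt_le ht.mem).trans h.ffa.FL
  rw [← H7.centralizer_zpowers]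
  exact hK.k3.inf_centralizer_le ((zpowers_le.mpr htJ).trans hK.le_normalizer) (h.not_mem_stab ht)
    (hKL.trans (le_normalizer_V L))
    ((h.pCoreOf_le hKL hK).trans (H7.le_centralizer_omegaOneCenter 2 _))
    (by rw [H7.centralizer_zpowers, ht.idx]) (h.act hKL hK).2

theorem inf_centralizer_le (h : JS T L F) : omegaOneCenter 2 (pCoreOf 2 L) ⊓
    centralizer ((sSup {K | K ≤ L ∧ JC (thompsonSubgroupOf 2 T) K} : Subgroup G) : Set G) ≤
    centralizer (thompsonSubgroupOf 2 T : Set G) := by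
  refine le_centralizer_iff.mp (h.J_le_of (le_centralizer_iff.mp
    (inf_le_left.trans (H7.omegaOneCenter_le_centralizer 2 _))) fun t htJ ht => ?_)
  exact H7.le_centralizer_singleton_iff.mp ((inf_le_inf_left _ (H7.centralizer_anti
    (le_sSup (s := {K | K ≤ L ∧ JC (thompsonSubgroupOf 2 T) K})
      ⟨(h.Kt_le ht.mem).trans h.ffa.FL, h.jc htJ ht⟩))).trans (h.inf_centralizer_Kt htJ ht))

theorem V_le_sup (h : JS T L F) {U : Subgroup G} (hU : U ≤ omegaOneCenter 2 (pCoreOf 2 L))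
    (hW : ∀ K ≤ L, JC (thompsonSubgroupOf 2 T) K → wOf K ≤ U) :
    omegaOneCenter 2 (pCoreOf 2 L) ≤ (omegaOneCenter 2 (pCoreOf 2 L) ⊓
      centralizer ((sSup {K | K ≤ L ∧ JC (thompsonSubgroupOf 2 T) K} : Subgroup G) : Set G)) ⊔ U := by
  set E := sSup {K | K ≤ L ∧ JC (thompsonSubgroupOf 2 T) K} with hE
  have hEF : E ⊔ pCoreOf 2 L ≤ F := sup_le (sSup_le fun K hK => h.comp_le_F hK.1 hK.2) h.ffa.QF
  have h1 := H7.inf_centralizer_sylow_le (H7.ea_le_centralizer (H7.ea_omegaOneCenter 2 (pCoreOf 2 L)))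
    (H7.ea_isPGroup (H7.ea_omegaOneCenter 2 _)) (hEF.trans (h.ffa.FL.trans (le_normalizer_V L)))
    (h.sylQ.mono le_sup_right hEF)
  rw [inf_eq_left.mpr (H7.omegaOneCenter_le_centralizer 2 _)] at h1
  refine h1.trans (sup_le_sup (inf_le_inf_left _ (H7.centralizer_anti le_sup_left))
    ((commutator_mono le_rfl (H7.pResidualOf_le 2 _)).trans (H7.le_stab_iff.mp (sup_le
      (sSup_le fun K hK => ?_) ?_)).2))
  · have := (h.wOf_eq hK.1 hK.2).ge.trans (hW K hK.1 hK.2)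
    exact H7.le_stab_iff.mpr ⟨H7.le_normalizer_of_commutator_le hU this, this⟩
  · have : ⁅omegaOneCenter 2 (pCoreOf 2 L), pCoreOf 2 L⁆ ≤ U :=
      H7.commutator_le_of_le_centralizer (H7.le_centralizer_omegaOneCenter 2 _)
    exact H7.le_stab_iff.mpr ⟨H7.le_normalizer_of_commutator_le hU this, this⟩

theorem V_le_J (h : JS T L F) : omegaOneCenter 2 (pCoreOf 2 L) ≤ thompsonSubgroupOf 2 T := by
  refine (h.V_le_sup (U := omegaOneCenter 2 (pCoreOf 2 L) ⊓ thompsonSubgroupOf 2 T) inf_le_left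
    fun K hKL hK => le_inf (h.wOf_le_V hKL hK) (hK.wOf_le_J h.Jp)).trans (sup_le ?_ inf_le_right)
  exact (le_omegaOneCenter_J (inf_le_left.trans ((H7.omegaOneCenter_le 2 _).trans h.syl.pCoreOf_le))
    (fun v hv => (H7.mem_omegaOneCenter_iff.mp hv.1).2.2) h.inf_centralizer_le).trans
    (H7.omegaOneCenter_le 2 _)

/-- every element of `Ω₁Z(O₂(L))` is centralized by a conjugate of `J(T)` -/
theorem exists_conj_mem_centralizer (h : JS T L F) {v : G}
    (hv : v ∈ omegaOneCenter 2 (pCoreOf 2 L)) :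
    ∃ g ∈ L, g * v * g⁻¹ ∈ centralizer (thompsonSubgroupOf 2 T : Set G) := by
  obtain ⟨g, hg, hmax⟩ := Set.exists_max_image (L : Set G)
    (fun g => Nat.card ↥(thompsonSubgroupOf 2 T ⊓ centralizer {g * v * g⁻¹})) (Set.toFinite _)
    ⟨1, one_mem L⟩
  refine ⟨g, hg, ?_⟩
  set u := g * v * g⁻¹ with hu
  have huV : u ∈ omegaOneCenter 2 (pCoreOf 2 L) :=
    (mem_normalizer_iff.mp (le_normalizer_V L hg) v).mp hv
  refine H7.le_centralizer_singleton_iff.mp (h.J_le_of (H7.le_centralizer_singleton_iff.mpr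
    (H7.omegaOneCenter_le_centralizer 2 _ huV)) fun t htJ ht => ?_)
  by_contra htu
  have hK := h.jc htJ ht
  have hKL := (h.Kt_le ht.mem).trans h.ffa.FL
  have hct := h.inf_centralizer_Kt htJ ht
  set K := pResidualOf 2 (RA F (pCoreOf 2 L) t) with hKdef
  have hVc := H7.ea_le_centralizer (H7.ea_omegaOneCenter 2 (pCoreOf 2 L))
  obtain ⟨w, hw, c, hc, hwc⟩ := (H7.mem_sup_of_le_normalizer (H7.le_normalizer_of_le_centralizer
    ((h.wOf_le_V hKL hK).trans (hVc.trans (H7.centralizer_anti inf_le_left))))).mp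
    ((h.act hKL hK).1.ge huV)
  have hwt : w ∉ centralizer ({t} : Set G) := fun hm =>
    htu (mem_centralizer_singleton_comm.mp (hwc ▸ mul_mem hm (hct hc)))
  obtain ⟨z, hz, hz1⟩ := H7.exists_ne_one_of_ne_bot (H7.inf_centralizer_ne_bot h.Jp (isPGroup_wOf K)
    hK.le_normalizer_wOf hK.wOf_ne_bot)
  obtain ⟨k, hk, hkw⟩ := hK.k3.exists_conj (ea_wOf K) hK.card (le_normalizer_wOf K)
    (pCoreOf_le_centralizer_wOf K) hK.k3.wOf_inf hw hz.1 (fun e => hwt (e ▸ one_mem _)) hz1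
  have e : k * g * v * (k * g)⁻¹ = z * c := by
    calc _ = k * u * k⁻¹ := by rw [hu]; group
      _ = (k * w * k⁻¹) * ((k * c) * k⁻¹) := by rw [← hwc]; group
      _ = z * c := by rw [hkw, hc.2 k hk]; group
  have hle : thompsonSubgroupOf 2 T ⊓ centralizer {u} ≤
      thompsonSubgroupOf 2 T ⊓ centralizer {z * c} := by
    refine fun j hj => ⟨hj.1, mem_centralizer_singleton_comm.mp (mul_mem
      (H7.centralizer_le_centralizer_singleton hj.1 hz.2) ?_)⟩
    have h1 := mem_centralizer_singleton_iff.mp hj.2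
    have hw' : w⁻¹ * (j * w * j⁻¹) ∈ wOf K :=
      mul_mem (inv_mem hw) ((mem_normalizer_iff.mp (hK.le_normalizer_wOf hj.1) w).mp hw)
    have hc' : c * (j * c * j⁻¹)⁻¹ ∈ centralizer (K : Set G) :=
      mul_mem hc.2 (inv_mem ((mem_normalizer_iff.mp
        (H7.normalizer_le_normalizer_centralizer _ (hK.le_normalizer hj.1)) c).mp hc.2))
    have e1 : w⁻¹ * (j * w * j⁻¹) = c * (j * c * j⁻¹)⁻¹ := by
      calc _ = w⁻¹ * (j * (w * c)) * c⁻¹ * j⁻¹ := by group
        _ = _ := by rw [hwc, h1, ← hwc]; group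
    have h2 : c * (j * c * j⁻¹)⁻¹ = 1 := hK.k3.wOf_inf.le ⟨e1 ▸ hw', hc'⟩
    rw [mem_centralizer_singleton_iff]
    calc c * j = c * (j * c * j⁻¹)⁻¹ * (j * c) := by group
      _ = _ := by rw [h2, one_mul]
  have := hmax (k * g) (mul_mem (hKL hk) hg)
  simp only [e] at this
  exact htu ((H7.eq_of_le_of_card_le hle this).ge ⟨htJ, mem_centralizer_singleton_comm.mp
    (mul_mem (H7.centralizer_le_centralizer_singleton htJ hz.2) (hct hc))⟩).2

end Comp

end JS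

theorem isCharP_normalizer (hL : IsCharacteristicTwoType G) {Q : Subgroup G} (hQ : IsPGroup 2 Q)
    (h1 : Q ≠ ⊥) : H7.IsCharP 2 (normalizer (Q : Set G)) :=
  H7.isCharP_iff.mpr (hL.2 Q hQ h1)

theorem centralizer_pCoreOf_normalizer_le (hL : IsCharacteristicTwoType G) {Q : Subgroup G}
    (hQ : IsPGroup 2 Q) (h1 : Q ≠ ⊥) :
    centralizer (pCoreOf 2 (normalizer (Q : Set G)) : Set G) ≤ pCoreOf 2 (normalizer (Q : Set G)) :=
  (le_inf ((H7.centralizer_anti (H7.le_pCoreOf hQ le_normalizer le_rfl)).trans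
    (centralizer_le_normalizer _)) le_rfl).trans (isCharP_normalizer hL hQ h1)

section Zero

variable [Finite G] (hL : IsCharacteristicTwoType G)
  (hN : ∀ N : Subgroup G, IsTwoLocal N → Group.IsSolvable N)
  (hZ : ∀ S : Sylow 2 G, centralizer (omegaCenterOf (S : Subgroup G) : Set G) ≤
      normalizer ((S : Subgroup G) : Set G))
  {T K : Subgroup G}

include hL in
/-- for `K ∈ 𝒦₀(T)` the group `N(W_K)` lies in `ℒ(T₀)` -/
theorem exists_jOvergroups_wOf (hT : IsPGroup 2 T) (hK : K ∈ jComponentsZero T) :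
    ∃ T₀, thompsonSubgroupOf 2 T ≤ T₀ ∧ thompsonSubgroupOf 2 T₀ = thompsonSubgroupOf 2 T ∧
      normalizer (wOf K : Set G) ∈ jOvergroups T₀ := by
  have h := isJComponent_iff.mp hK.1
  obtain ⟨T₀, h1, h2⟩ := H7.exists_isSylowIn_ge (isPGroup_J hT) h.le_normalizer_wOf
  have h3 := hK.2 T₀ h2 (isSylowTwoIn_iff.mpr h1)
  exact ⟨T₀, h2, h3, isSylowTwoIn_iff.mpr h1, h3 ▸ h.not_le_pCoreOf (le_normalizer_wOf K),
    centralizer_pCoreOf_normalizer_le hL (isPGroup_wOf K) h.wOf_ne_bot⟩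

include hL hN hZ in
theorem normalizer_eq_normalizer_wOf (hT : IsPGroup 2 T) (hK : K ∈ jComponentsZero T) :
    normalizer (K : Set G) = normalizer (wOf K : Set G) := by
  have h := isJComponent_iff.mp hK.1
  obtain ⟨T₀, -, h2, h3⟩ := exists_jOvergroups_wOf hL hT hK
  obtain ⟨F, hF⟩ := exists_js hN hZ h3
  refine le_antisymm (normalizer_le_normalizer_wOf K) fun g hg => ?_
  exact hF.mem_normalizer_of_inf (le_normalizer_wOf K) (h2 ▸ h) hg (by
    rw [H7.cj_eq_of_mem_normalizer hg, inf_idem]; exact h.wOf_ne_bot)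

include hL hN hZ in
theorem jc_cj_of_le (hT : IsPGroup 2 T) (hK : K ∈ jComponentsZero T) {g : G}
    (hg : thompsonSubgroupOf 2 (cj g T) ≤ normalizer (wOf K : Set G)) :
    JC (thompsonSubgroupOf 2 (cj g T)) K := by
  have h := isJComponent_iff.mp hK.1
  obtain ⟨T₀, -, h2, h3⟩ := exists_jOvergroups_wOf hL hT hK
  obtain ⟨n, hn, hle⟩ := (isSylowTwoIn_iff.mp h3.1).exists_le_cj
    (isPGroup_J (H7.isPGroup_cj hT)) hg
  have e : thompsonSubgroupOf 2 (cj g T) = thompsonSubgroupOf 2 (cj g T₀) := by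
    rw [← cj_J, ← cj_J, h2]
  have := J_eq_of_le_cj (T := cj g T₀) (R := cj n T₀) (g := n * g⁻¹) (e ▸ hle)
    (by rw [H7.cj_mul, H7.cj_inv_cj])
  rw [e, ← this, ← cj_J, h2]
  exact h.cj_of_mem' ((normalizer_eq_normalizer_wOf hL hN hZ hT hK).ge hn)

end Zero

end Cfsg.H9
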