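import Cfsg.Agent.H9.S3Odd

/-!
Amalgams of type `(S₃, S₃)`: the cases `b = 5`, `b = 3` and Goldschmidt's bound `|T| ≤ 2 ^ 7`.
-/

set_option autoImplicit false
set_option linter.style.haveILetI false
set_option linter.unusedSectionVars false

namespace Cfsg.H9

open Subgroup MulAction
open Cfsg.H7 (cj mem_cj stab)
open scoped commutatorElement

universe u

variable {G : Type u} [Group G] {M₁ M₂ : Subgroup G}

theorem card_sup_mul_le [Finite G] {A B Z : Subgroup G} (h : A ≤ normalizer (B : Set G))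
    (h1 : Z ≤ A) (h2 : Z ≤ B) : Nat.card ↥(A ⊔ B) * Nat.card Z ≤ Nat.card A * Nat.card B := by
  rw [← H7.card_sup_mul_card_inf h]
  exact Nat.mul_le_mul_left _ (card_le_of_le (le_inf h1 h2))

namespace S3O

variable [Finite G] {a a' ρ ρ' δ μ : CosetVertex M₁ M₂} {f g : ℤ → CosetVertex M₁ M₂}

theorem five_ac (o : S3O M₁ M₂ 5) (h4 : V4 M₁ M₂) : AC M₁ M₂ 5 := by
  intro g hg ng hle
  obtain ⟨f, hf, hc⟩ := o.ex
  have n0 := o.n0 hf hc
  have n1 := o.h.nc_succ hf 0 1 n0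
  have m1 := o.h.nc_succ hg 0 1 ng
  have w1 : Wit (NC (M₁ := M₁) (M₂ := M₂)) 3 := by
    obtain ⟨x, hx, hx0⟩ := SetLike.not_le_iff_exists.mp fun hle => o.ne _ n1
      (o.h.en_of_one (hf.ad 1 2) (hf.ad 1 0) (hf.ne' _ _) hle)
    refine ⟨f, hf, n0, x, hx0, fun k h1 h2 => ?_⟩
    obtain rfl | rfl | rfl | rfl : k = 0 ∨ k = 1 ∨ k = 2 ∨ k = 3 := by omega
    · exact o.am.Q_le_G (hf.ad 1 0) hx.2
    · exact Qv_le _ hx.2
    · exact Qv_le _ hx.1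
    · exact o.am.Q_le_G (hf.ad 2 3) hx.1
  obtain ⟨x, hx⟩ := o.am.arc_trans (fun g δ hδ => hδ.smul g) o.h.mix w1 (o.witB.mono (by omega)) 4
    (by omega) _ _ (hf.shift 1) (hg.shift 1) (iff_of_false n1 m1)
  have e1 : x • f 1 = g 1 := hx 0 le_rfl (by omega)
  have e2 : x • f (5 : ℕ) = g (5 : ℕ) := hx 4 (by omega) le_rfl
  have h1 : Vv (g 1) ≤ Qv (g (5 : ℕ)) := (h4 _ _ _ m1 (hg.ad 1 0) (hg.ad 1 2) (hg.ne' _ _)).trans
    (sup_le hle (o.m.le_Q (hg.le 2 (5 : ℕ) 3)))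
  rw [← e1, ← e2, Vv_smul, Qv_smul, H7.cj_le_cj_iff] at h1
  exact hc ((Z_le_V (hf.ad 1 0)).trans h1)

theorem five_ac' (o : S3O M₁ M₂ 5) (h4 : V4 M₁ M₂) (hg : Line g) (i k : ℤ) (ng : NC (g i))
    (e : k = i + 5 ∨ k = i - 5 := by omega) : ¬ Zv (g i) ≤ Qv (g k) := by
  rcases e with rfl | rfl
  · simpa using o.five_ac h4 _ (hg.shift i) (by simpa using ng)
  · simpa using o.five_ac h4 _ (hg.rev i) (by simpa using ng)

theorem five_not_mem (o : S3O M₁ M₂ 5) (h4 : V4 M₁ M₂) (hg : Line g) (i j k : ℤ) (ng : NC (g i))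
    {t : G} (ht : t ∈ Zv (g i)) (ht' : t ∉ Zv (g j))
    (e : j = i + 1 ∧ k = i + 5 ∨ j = i - 1 ∧ k = i - 5 := by omega) : t ∉ Qv (g k) := fun hm =>
  o.five_ac' h4 hg i k ng (by omega) ((o.h.Z_le_sup_zpowers o.q2 (o.h.nc_succ hg i j ng) (hg.ad j i)
    ht ht').trans (sup_le (o.m.le_Q (hg.le j k 4)) (zpowers_le_of_mem hm)))

theorem nc_even (h : S3M M₁ M₂) (hg : Line g) (ng : NC (g 0)) :
    NC (g 2) ∧ NC (g 4) ∧ NC (g 6) ∧ NC (g (-2)) := by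
  have n2 := h.nc_succ' hg 1 2 (h.nc_succ hg 0 1 ng)
  have n4 := h.nc_succ' hg 3 4 (h.nc_succ hg 2 3 n2)
  exact ⟨n2, n4, h.nc_succ' hg 5 6 (h.nc_succ hg 4 5 n4),
    h.nc_succ' hg (-1) (-2) (h.nc_succ hg 0 (-1) ng)⟩

theorem five_comm (o : S3O M₁ M₂ 5) (h4 : V4 M₁ M₂) (hg : Line g) (ng : NC (g 0)) {t s : G}
    (ht : t ∈ Zv (g 0)) (ht' : t ∉ Zv (g 1)) (hs : s ∈ Zv (g 6)) (hs' : s ∉ Zv (g 5)) :
    ⁅t, s⁆ ∈ Zv (g 3) ∧ ⁅t, s⁆ ≠ 1 := by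
  obtain ⟨-, -, n6, n2⟩ := nc_even o.h hg ng
  have h1 := o.five_not_mem h4 hg 0 1 (5 : ℕ) ng ht ht'
  have h2 := o.five_not_mem h4 hg 6 5 1 n6 hs hs'
  have h3 : s ∈ Zv (g ((5 : ℕ) + 1)) := by simpa using hs
  exact ⟨by simpa using o.v4_mid le_rfl h4 hg (o.five_ac' h4 hg (-2) _ n2) ht h1 h3 h2,
    fun e => (o.u_facts hg ht h1 h3 h2).2.2.1 (e ▸ one_mem _)⟩

theorem five_dih (o : S3O M₁ M₂ 5) (h4 : V4 M₁ M₂) (hf : Line f) (nf : NC (f 0)) {r s : G}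
    (hr : r ∈ Zv (f (-2))) (hr' : r ∉ Zv (f (-1))) (hs : s ∈ Zv (f 6)) (hs' : s ∉ Zv (f 5)) :
    ⁅s, r * s * r⁻¹⁆ ∈ Zv (f 3) ∧ ⁅s, r * s * r⁻¹⁆ ≠ 1 := by
  obtain ⟨-, -, n6, n2⟩ := nc_even o.h hf nf
  have h1 : r ∉ Qv (f 3) := o.five_not_mem h4 hf (-2) (-1) 3 n2 hr hr'
  have h2 : r ∈ Ev (f 3) (f 2) := o.am.Q_le_E' (hf.ad 3 2) (o.m.le_Q (hf.le (-2) 2 4) (by omega) hr)
  have hg := (hf.rev 6).glue (hf.smul r) 3 (by simpa using Eq.symm h2.1)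
    (by simpa using (o.am.smul_ne (hf.ad 3 2) (hf.ad 3 4) (hf.ne' _ _) h2 h1).symm)
  have := o.five_comm h4 hg (t := s) (s := r * s * r⁻¹) (by simpa using n6) (by simpa using hs)
    (by simpa using hs') (by
      simp only [show ¬ (6 : ℤ) ≤ 3 by omega, if_false]
      rw [Zv_smul]; exact H7.conj_mem_cj hs) (by
      simp only [show ¬ (5 : ℤ) ≤ 3 by omega, if_false]
      rw [Zv_smul, mem_cj]
      simpa [mul_assoc] using hs')
  simpa using this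

theorem not_five4 (o : S3O M₁ M₂ 5) (h4 : V4 M₁ M₂) : False := by
  obtain ⟨f, hf, hc⟩ := o.ex
  have n0 := o.n0 hf hc
  obtain ⟨n2, n4, n6, n2'⟩ := nc_even o.h hf n0
  obtain ⟨r, hr, hr'⟩ := SetLike.not_le_iff_exists.mp fun hle : Zv (f (-2)) ≤ Zv (f (-1)) =>
    o.five_ac' h4 hf (-2) 3 n2' (by omega) (hle.trans (o.m.le_Q (hf.le (-1) 3 4)))
  obtain ⟨s, hs, hs'⟩ := SetLike.not_le_iff_exists.mp fun hle : Zv (f 6) ≤ Zv (f 5) =>
    o.five_ac' h4 hf 6 1 n6 (by omega) (hle.trans (o.m.le_Q (hf.le 5 1 4)))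
  obtain ⟨k1, k2⟩ := o.five_dih h4 hf n0 hr hr' hs hs'
  obtain ⟨k3, -⟩ := o.five_dih h4 (hf.rev 4) (by simpa using n4) (r := s) (s := r)
    (by simpa using hs) (by simpa using hs') (by simpa using hr) (by simpa using hr')
  have r2 := inv_eq_self_of_sq (sq_eq_one_of_ea (o.h.c.ea_Z _) hr)
  have s2 := inv_eq_self_of_sq (sq_eq_one_of_ea (o.h.c.ea_Z _) hs)
  have e : ⁅r, s * r * s⁻¹⁆ = ⁅s, r * s * r⁻¹⁆⁻¹ := by
    simp only [commutatorElement_def, mul_inv_rev, r2, s2, mul_assoc]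
  rw [e, inv_mem_iff] at k3
  refine k2 (mem_bot.mp ?_)
  rw [← o.h.Z_disj n2 (hf.ad 2 1) (hf.ad 2 3) (hf.ne' _ _)]
  exact ⟨by simpa using k3, k1⟩

theorem three_v4 (o : S3O M₁ M₂ 3) : V4 M₁ M₂ := by
  obtain ⟨f, hf, hc⟩ := o.ex
  obtain ⟨t, ht, htQ⟩ := SetLike.not_le_iff_exists.mp hc
  obtain ⟨s, hs, hsQ⟩ := SetLike.not_le_iff_exists.mp (o.critB hf hc)
  obtain ⟨u1, -, -, uc, u2, -⟩ := o.u_facts hf ht htQ hs hsQ
  obtain ⟨-, -, -, uc', -, -⟩ := o.u_facts (hf.rev 4) (t := s) (s := t) hs hsQ ht htQ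
  have uu := sq_eq_one_of_ea (o.h.ea_V o.m le_rfl _) u1
  rw [← commutatorElement_inv, inv_eq_self_of_sq uu] at uc'
  exact u2 (o.h.mem_Z_of_comm2 (nc_even o.h hf (o.n0 hf hc)).1 (hf.ad 2 1) (hf.ad 2 3) (hf.ne' _ _)
    (o.m.V_le_Q (hf.le 1 2 1) (by omega) u1) uu (fun x hx => uc x (Ev_comm (f 2) _ ▸ hx))
    fun x hx => uc' x (Ev_comm (f 2) _ ▸ hx))

theorem three (o : S3O M₁ M₂ 3) : ∃ δ : CosetVertex M₁ M₂, Nat.card (Qv δ) ≤ 64 := by
  have h4 := o.three_v4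
  have hq := o.q2
  have h := o.h
  obtain ⟨f, hf, hc⟩ := o.ex
  have n0 := o.n0 hf hc
  have n2 := (nc_even h hf n0).1
  have n3 := h.nc_succ hf 2 3 n2
  have a21 := hf.ad 2 1
  have a23 := hf.ad 2 3
  have a32 := hf.ad 3 2
  have a34 := hf.ad 3 4
  have e13 : f 1 ≠ f 3 := hf.ne' _ _
  have e24 : f 2 ≠ f 4 := hf.ne' _ _
  have v1 : ¬ Vv (f 1) ≤ Qv (f 3) := fun hle => hc ((Z_le_V (hf.ad 1 0)).trans hle)
  have v2 : Vv (f 1) ≤ Gv (f 3) := h.V_le_G o.m (hf.le 1 3 2)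
  set a := f 2
  have VQ : ∀ ρ, Ad a ρ → Vv ρ ≤ Qv a := fun ρ hρ => o.m.V_le_Q (Ad.le hρ.symm)
  have iV : ∀ ρ, Ad a ρ → (Zv a).relIndex (Vv ρ) ∣ 2 := fun ρ hρ =>
    h.idxV hq h4 (h.not_nc_of_adj n2 hρ) (o.m.V_le_Q (le_refl' _)) hρ.symm
  have nVQ : ∀ ρ, Ad a ρ → Qv a ≤ normalizer (Vv ρ : Set G) := fun ρ hρ =>
    (o.am.Q_le_G hρ).trans (nV ρ)
  have cV : ∀ ρ, Ad a ρ → ⁅Vv ρ, Qv a⁆ ≤ Zv a := fun ρ hρ =>
    commutator_le_of_relIndex_two (Z_le_V hρ.symm) (iV ρ hρ) ((Qv_le a).trans (nZ a)) (nVQ ρ hρ)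
  have WQ : Wv a ≤ Qv a := W_le_iff.mpr VQ
  have k1 : ⁅Hv (f 3), Kv (f 3)⁆ ≤ Vv (f 3) := by
    refine o.am.comm_K_le (nH _) (nV _) v2 v1 ?_
    rw [commutator_comm]
    exact ((commutator_mono le_rfl (H_le' a32)).trans (cV _ a21)).trans (Z_le_V a32)
  have k2 : ¬ ⁅Qv (f 3), Kv (f 3)⁆ ≤ Qv a := fun hle => o.ne _ n3 (h.en_of_comm a32 hle)
  have k3 : Qv a ⊓ Qv (f 3) ⊓ Qv (f 4) ≤ Hv (f 3) := by
    rintro x ⟨⟨h1, h2⟩, h3⟩
    refine mem_H.mpr ⟨h2, fun c hc => h.nc_of_adj n3 hc ⟨o.am.Q_le_G hc h2, ?_⟩⟩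
    refine H7.centralizer_anti ((Z_le_V hc).trans (h4 _ _ _ n3 a32 a34 e24)) ?_
    rw [H7.centralizer_sup]
    exact ⟨h.c.Q_le_C _ h1, h.c.Q_le_C _ h3⟩
  have k4 : ¬ Wv a ⊓ Qv (f 3) ≤ Qv (f 4) := fun hle => by
    refine k2 ((o.am.comm_K_le (nQ _) (nH _) v2 v1 (le_trans ?_ k3)).trans (H_le' a32))
    have : ⁅Qv (f 3), Vv (f 1)⁆ ≤ Wv a ⊓ Qv (f 3) := le_inf
      ((commutator_mono le_rfl (V_le_W a21)).trans (H7.commutator_le_right_of_le_normalizer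
        ((o.am.Q_le_G a32).trans (nW a))))
      (H7.commutator_le_left_of_le_normalizer (v2.trans (nQ _)))
    exact le_inf (this.trans (inf_le_inf_right _ WQ)) (this.trans hle)
  have k5 : Qv a ≤ Hv (f 3) ⊔ Wv a := by
    refine (le_sup_of_relIndex_two (o.am.idx_two a32 (o.am.Q_le_E' a32)) (VQ _ a21) v1).trans
      (sup_le ?_ ((V_le_W a21).trans le_sup_right))
    refine (le_sup_of_relIndex_two (o.am.idx_two a34.symm (inf_le_right.trans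
      (o.am.Q_le_E' a34.symm))) (inf_le_inf_right _ WQ) k4).trans
      (sup_le_sup k3 inf_le_left)
  have YG : ⁅Qv (f 3), Kv (f 3)⁆ ≤ Gv a :=
    (H7.commutator_le_left_of_le_normalizer ((Kv_le _).trans (nQ _))).trans (o.am.Q_le_G a32)
  have k6 : ⁅Qv a, Kv a⁆ ≤ Wv a := by
    refine o.am.comm_K_le (nQ a) (nW a) YG k2 ((commutator_mono k5 le_rfl).trans
      (H7.sup_commutator_le (((H_le' a32).trans (Qv_le a)).trans (nW a)) le_normalizer ?_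
        (H7.commutator_le_left_of_le_normalizer (YG.trans (nW a)))))
    exact ((commutator_mono le_rfl (H7.commutator_le_right_of_le_normalizer
      ((Qv_le _).trans (nK _)))).trans k1).trans (V_le_W a23)
  have k7 : pCoreOf 2 (Kv a) ≤ Wv a := (o.am.loc a).pCoreOf_K_le.trans k6
  obtain ⟨D, hD, hDK⟩ := (o.am.k3 a).exists_three
  have hDle : D ≤ Kv a := le_sup_left.trans hDK.le
  have hDW : D ≤ normalizer (Wv a : Set G) := (hDle.trans (Kv_le a)).trans (nW a)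
  have pW : IsPGroup 2 (Wv a) := (pQ a).to_le WQ
  have k8 := (CoprimeAct.of_isPGroup_right (not_two_dvd_of_odd (K3.odd_of_three hD)) pW
    hDW).le_sup_of_commutator_le WQ ((commutator_mono le_rfl hDle).trans k6)
  set C := Qv a ⊓ centralizer (D : Set G)
  have k9 : ∀ c ∈ C, c ∈ centralizer (Vv (f 1) : Set G) → c = 1 := by
    intro c hc hcV
    have h1 : Wv a ≤ centralizer {c} := by
      refine W_le_iff.mpr fun ρ hρ => ?_
      obtain ⟨k, hk, rfl⟩ := o.am.exists_smul_K a21 hρ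
      rw [← hDK] at hk
      obtain ⟨d, hd, q, hq, rfl⟩ := (H7.mem_sup_of_le_normalizer
        (hDle.trans (H7.le_normalizer_pCoreOf 2 _))).mp hk
      rw [mul_smul, show q • f 1 = f 1 from o.am.Q_le_G a21 (WQ (k7 hq)), Vv_smul]
      intro x hx
      rw [mem_cj] at hx
      have h2 := hcV _ hx
      have h3 := hc.2 d hd
      rw [mem_centralizer_singleton_iff]
      calc x * c = d * (d⁻¹ * x * d * c) * d⁻¹ := by
            rw [mul_assoc _ d c, h3]; group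
        _ = c * x := by rw [h2, ← mul_assoc, h3]; group
    have h2 : Kv a ≤ centralizer {c} := hDK.ge.trans (sup_le
      (fun d hd => mem_centralizer_singleton_iff.mpr (hc.2 d hd)) (k7.trans h1))
    refine mem_bot.mp ?_
    rw [← h.CK n2]
    exact ⟨hc.1, fun k hk => mem_centralizer_singleton_iff.mp (h2 hk)⟩
  have k10 : Nat.card C ≤ 4 := by
    obtain ⟨t, ht, htQ⟩ := SetLike.not_le_iff_exists.mp v1
    have htZ : t ∉ Zv a := fun hm => htQ (o.m.le_Q (Ad.le a23) (by omega) hm)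
    rw [← h.card_Za hq n2]
    refine Nat.card_le_card_of_injective (fun c : C => (⟨⁅t, (c : G)⁆, cV _ a21
      (commutator_mem_commutator ht c.2.1)⟩ : Zv a)) fun c c' e => ?_
    have e1 : ⁅t, (c : G)⁆ = ⁅t, (c' : G)⁆ := congrArg Subtype.val e
    have hm : (c : G)⁻¹ * c' ∈ C := mul_mem (inv_mem c.2) c'.2
    refine Subtype.ext (inv_mul_eq_one.mp (k9 _ hm ?_))
    refine H7.centralizer_anti (le_sup_of_relIndex_two (iV _ a21) (zpowers_le_of_mem ht)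
      fun hle => htZ (hle (mem_zpowers t))) ?_
    rw [H7.centralizer_sup]
    refine ⟨H7.centralizer_anti inf_le_right (h.c.Q_le_C _ hm.1), ?_⟩
    have e2 : t * ((c : G)⁻¹ * c') = (c : G)⁻¹ * c' * t := by
      have e3 : (c : G) * t⁻¹ * (c : G)⁻¹ = c' * t⁻¹ * (c' : G)⁻¹ := by
        simpa only [commutatorElement_def, mul_assoc, mul_right_inj] using e1
      calc t * ((c : G)⁻¹ * c') = (c : G)⁻¹ * ((c : G) * t⁻¹ * (c : G)⁻¹)⁻¹ * c' := by group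
        _ = (c : G)⁻¹ * c' * t := by rw [e3]; group
    rintro _ ⟨n, rfl⟩
    exact (Commute.zpow_left e2 n)
  have cardV : ∀ ρ, Ad a ρ → Nat.card (Vv ρ) ≤ 8 := fun ρ hρ => by
    have h1 := H7.relIndex_mul_card_of_le (Z_le_V hρ.symm)
    have h2 := relIndex_le_two (iV ρ hρ)
    rw [h.card_Za hq n2] at h1
    omega
  have k11 : Nat.card (Wv a) ≤ 32 := by
    obtain ⟨ρ, aρ, e1, e2⟩ := o.am.exists_third a21 a23 e13
    have h1 : Wv a ≤ Vv (f 1) ⊔ Vv (f 3) ⊔ Vv ρ := W_le_iff.mpr fun c hc => by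
      rcases o.am.eq_of_three a21 a23 aρ e13.symm e1 e2.symm hc with rfl | rfl | rfl
      · exact le_sup_left.trans le_sup_left
      · exact le_sup_right.trans le_sup_left
      · exact le_sup_right
    have h2 := card_sup_mul_le ((VQ _ a21).trans (nVQ _ a23)) (Z_le_V a21.symm) (Z_le_V a23.symm)
    have h3 := card_sup_mul_le ((sup_le (VQ _ a21) (VQ _ a23)).trans (nVQ _ aρ))
      ((Z_le_V a21.symm).trans le_sup_left) (Z_le_V aρ.symm)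
    rw [h.card_Za hq n2] at h2 h3
    have h5 := Nat.mul_le_mul (cardV _ a21) (cardV _ a23)
    have h6 := Nat.mul_le_mul (show Nat.card ↥(Vv (f 1) ⊔ Vv (f 3)) ≤ 16 by omega) (cardV _ aρ)
    have h7 := card_le_of_le h1
    omega
  refine ⟨a, (card_le_of_le k8).trans ?_⟩
  have h1 := H7.card_sup_mul_card_inf (H := C) (N := Wv a) ((inf_le_left.trans (Qv_le a)).trans (nW a))
  rw [sup_comm]
  by_cases h2 : Wv a ⊓ centralizer (D : Set G) = ⊥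
  · have h3 := card_modEq_one hD hDW h2
    obtain ⟨k, hk⟩ := IsPGroup.iff_card.mp pW
    have h5 : Nat.card (Wv a) ≤ 16 := by
      rw [hk] at k11 h3 ⊢
      have : k ≤ 5 := by
        by_contra hn
        have := Nat.pow_le_pow_right (show 0 < 2 by omega) (show 6 ≤ k by omega)
        omega
      interval_cases k <;> simp_all [Nat.ModEq]
    have h6 := Nat.mul_le_mul k10 h5
    have h7 : 0 < Nat.card ↥(C ⊓ Wv a) := Nat.card_pos
    nlinarith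
  · have h3 : 2 ≤ Nat.card ↥(C ⊓ Wv a) := by
      have : C ⊓ Wv a ≠ ⊥ := H7.ne_bot_of_le (le_inf (inf_le_inf_right _ WQ) inf_le_left) h2
      have := (one_lt_card_iff_ne_bot _).mpr this
      omega
    have h6 := Nat.mul_le_mul k10 k11
    nlinarith

end S3O

theorem card_Ev_eq {δ μ : CosetVertex M₁ M₂} (ha : Ad δ μ) :
    Nat.card (Ev δ μ) = Nat.card ↥(M₁ ⊓ M₂) :=
  edge_induction (P := fun A B => Nat.card ↥(A ⊓ B) = Nat.card ↥(M₁ ⊓ M₂))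
    (fun g A B h => by rw [← H7.cj_inf, H7.card_cj, h]) rfl (by rw [inf_comm]) ha

theorem S3M.card_le [Finite G] (h : S3M M₁ M₂) : Nat.card ↥(M₁ ⊓ M₂) ≤ 128 := by
  obtain ⟨b, hb, m, f, hf, hc⟩ := h.exists_crit_line
  have n0 := h.nc_zero m hb hf hc
  by_cases h1 : b = 1
  · subst h1
    rw [← card_Ev_eq (hf.ad 0 1)]
    exact (h.b_one n0 (hf.ad 0 1) hc).trans (by omega)
  by_cases h2 : b = 2
  · subst h2
    rw [← card_Ev_eq (hf.ad 0 1)]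
    exact h.b_two m hf hc
  have nb : ¬ NC (f b) := h.even_big m (by omega) hf hc
  have o : S3O M₁ M₂ b := ⟨h, m, by omega, fun ρ hρ => h.not_en m (by omega) hf hc hρ,
    fun g hg ng => fun hn => nb ((h.nc_par hf hg (iff_of_true n0 ng) b).mpr hn), f, hf, hc⟩
  obtain ⟨-, n4, n6, -⟩ := S3O.nc_even h hf n0
  obtain rfl | rfl | rfl | rfl | h7 : b = 3 ∨ b = 4 ∨ b = 5 ∨ b = 6 ∨ 7 ≤ b := by omega
  · obtain ⟨δ, hδ⟩ := o.three
    obtain ⟨μ, ha⟩ := cg_exists_adj δ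
    rw [← card_Ev_eq ha, h.am.card_E ha]
    omega
  · exact (nb n4).elim
  · by_cases h4 : V4 M₁ M₂
    · exact (o.not_five4 h4).elim
    · exact (o.not_big8 le_rfl h4).elim
  · exact (nb n6).elim
  · by_cases h4 : V4 M₁ M₂
    · exact (o.not_big4 h7 h4).elim
    · exact (o.not_big8 (by omega) h4).elim

/-- Goldschmidt's bound -/
theorem S3Am.card_le [Finite G] (h : S3Am M₁ M₂) : Nat.card ↥(M₁ ⊓ M₂) ≤ 128 := by
  by_cases hch : ∀ δ : CosetVertex M₁ M₂, H7.IsCharP 2 (Gv δ)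
  swap
  · push Not at hch
    obtain ⟨δ, hδ⟩ := hch
    obtain ⟨μ, ha⟩ := cg_exists_adj δ
    rw [← card_Ev_eq ha]
    exact (h.card_le_of_not_char ha hδ).trans (by omega)
  have hC : S3C M₁ M₂ := ⟨h, hch⟩
  by_cases hall : ∀ δ : CosetVertex M₁ M₂, NC δ
  · obtain ⟨μ, ha⟩ := cg_exists_adj (Sum.inl ((1 : G) : G ⧸ M₁) : CosetVertex M₁ M₂)
    rw [← card_Ev_eq ha, h.card_E ha]
    rcases hC.struct ha (hC.b_one hall ha) (hC.b_one hall ha.symm) with ⟨h1, -⟩ | ⟨h1, -⟩ <;> omega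
  refine S3M.card_le ⟨hC, fun δ μ ha => ⟨fun h1 h2 => hall
    (h.all_of_edge (fun g δ hδ => hδ.smul g) ha h1 h2), fun h2 => ?_⟩⟩
  by_contra h1
  have k1 : Gv δ ≤ centralizer (omegaOneCenter 2 (Ev δ μ) : Set G) := by
    by_contra hn; exact h1 (hC.nc_of ha hn)
  have k2 : Gv μ ≤ centralizer (omegaOneCenter 2 (Ev μ δ) : Set G) := by
    by_contra hn; exact h2 (hC.nc_of ha.symm hn)
  rw [Ev_comm] at k2
  exact H7.omegaOneCenter_ne_bot (h.pE ha) (h.E_ne_bot ha) (h.eq_bot ha (H7.omegaOneCenter_le _ _)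
    (k1.trans (centralizer_le_normalizer _)) (k2.trans (centralizer_le_normalizer _)))

end Cfsg.H9
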