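import Cfsg.Agent.H9.S3Mix

/-!
Amalgams of type `(S₃, S₃)` with one central `Ω₁(Z(T))`: critical distance one, and even critical
distance.
-/

set_option autoImplicit false
set_option linter.style.haveILetI false
set_option linter.unusedSectionVars false

namespace Cfsg.H9

open Subgroup MulAction
open Cfsg.H7 (cj mem_cj stab)
open scoped commutatorElement

universe u

variable {G : Type u} [Group G] {M₁ M₂ : Subgroup G}

/-- `b` is at most the critical distance -/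
def Mn (M₁ M₂ : Subgroup G) (b : ℕ) : Prop :=
  ∀ m < b, ∀ δ μ : CosetVertex M₁ M₂, Near m δ μ → Zv δ ≤ Qv μ

theorem Mn.le_Q {b n : ℕ} (m : Mn M₁ M₂ b) {δ μ : CosetVertex M₁ M₂} (hl : Le n δ μ)
    (hn : n < b := by omega) : Zv δ ≤ Qv μ :=
  let ⟨k, h1, h2⟩ := hl; m k (by omega) δ μ h2

theorem Mn.V_le_Q {b n : ℕ} (m : Mn M₁ M₂ b) {δ μ : CosetVertex M₁ M₂} (hl : Le n δ μ)
    (hn : n + 1 < b := by omega) : Vv δ ≤ Qv μ :=
  V_le_iff.mpr fun _ ha => m.le_Q (Le.cons ha.symm hl)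

theorem Mn.cr {b : ℕ} (m : Mn M₁ M₂ b) (hb : 1 ≤ b) {f : ℤ → CosetVertex M₁ M₂} (hf : Line f)
    (hc : ¬ Zv (f 0) ≤ Qv (f b)) : Cr (b - 1) (f 0) (f 1) (f (b - 1)) (f b) :=
  ⟨fun k hk => m k (by omega), hf.ad _ _, hf.near' _ _ _, hf.near' _ _ _, hf.ad _ _, hc⟩

namespace S3M

variable [Finite G] (h : S3M M₁ M₂) {a a' ρ ρ' δ μ : CosetVertex M₁ M₂} {b n : ℕ}
  {f g : ℤ → CosetVertex M₁ M₂}
include h

theorem le_G (m : Mn M₁ M₂ b) (hl : Le n δ μ) (hn : n ≤ b := by omega) : Zv δ ≤ Gv μ := by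
  obtain ⟨k, h1, h2⟩ := hl
  rcases k with _ | k
  · exact near_zero_iff.mp h2 ▸ Zv_le δ
  · obtain ⟨ν, h3, h4⟩ := h2.last
    exact (m k (by omega) _ _ h3).trans (h.am.Q_le_G h4)

theorem V_le_G (m : Mn M₁ M₂ b) (hl : Le n δ μ) (hn : n + 1 ≤ b := by omega) : Vv δ ≤ Gv μ :=
  V_le_iff.mpr fun _ ha => h.le_G m (Le.cons ha.symm hl)

theorem Z_le_CV (m : Mn M₁ M₂ b) (hl : Le n δ μ) (hn : n + 1 < b := by omega) :
    Zv δ ≤ centralizer (Vv μ : Set G) :=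
  le_centralizer_iff.mp ((m.V_le_Q hl.symm).trans (h.c.Q_le_C δ))

theorem V_comm (m : Mn M₁ M₂ b) (hl : Le n δ μ) (hn : n + 2 < b := by omega) :
    Vv δ ≤ centralizer (Vv μ : Set G) :=
  V_le_iff.mpr fun _ ha => h.Z_le_CV m (Le.cons ha.symm hl)

theorem ea_V (m : Mn M₁ M₂ b) (hb : 3 ≤ b) (ρ : CosetVertex M₁ M₂) :
    IsElementaryAbelian 2 (Vv ρ) := by
  refine ea_of_sqs_eq_bot (eq_bot_iff.mpr (sqs_le_iff.mpr fun x hx => ?_))
  have hV := h.V_comm m (le_refl' ρ)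
  refine iSup_induction _ (C := fun x => x ∈ Vv ρ ∧ x * x ∈ (⊥ : Subgroup G)) hx
    (fun μ x hx => ⟨Z_le_V μ.2 hx, sq_eq_one_of_ea (h.c.ea_Z _) hx⟩) ⟨one_mem _, by simp⟩
    (fun x y hx hy => ⟨mul_mem hx.1 hy.1, ?_⟩) |>.2
  rw [mem_bot, show x * y * (x * y) = x * (y * x) * y by group, hV hx.1 y hy.1,
    show x * (x * y) * y = x * x * (y * y) by group, mem_bot.mp hx.2, mem_bot.mp hy.2, mul_one]

theorem exists_crit_line : ∃ b, 1 ≤ b ∧ Mn M₁ M₂ b ∧ ∃ f : ℤ → CosetVertex M₁ M₂,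
    Line f ∧ ¬ Zv (f 0) ≤ Qv (f b) := by
  obtain ⟨n, α, β, γ, α', c⟩ := h.c.exists_cr
  obtain ⟨k, hk, f, hf, rfl, rfl⟩ := h.am.exists_line_of_near (Near.cons c.ab c.ba)
  obtain rfl : k = n + 1 := by
    by_contra hne
    exact c.nc (c.min k (by omega) _ _ (hf.near' _ _ _))
  exact ⟨n + 1, by omega, fun m hm => c.min m (by omega), f, hf, c.nc⟩

theorem nc_zero (m : Mn M₁ M₂ b) (hb : 1 ≤ b) (hf : Line f) (hc : ¬ Zv (f 0) ≤ Qv (f b)) :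
    NC (f 0) := by
  by_contra hn
  exact hc ((h.Z_le_Z hn (hf.ad 0 1)).trans (m.le_Q (hf.le 1 b (b - 1))))

theorem nc_succ (hf : Line f) (i j : ℤ) (hc : NC (f i)) (e : j = i + 1 ∨ i = j + 1 := by omega) :
    ¬ NC (f j) := h.not_nc_of_adj hc (hf.ad i j e)

theorem nc_succ' (hf : Line f) (i j : ℤ) (hc : ¬ NC (f i))
    (e : j = i + 1 ∨ i = j + 1 := by omega) : NC (f j) := h.nc_of_adj hc (hf.ad i j e)

theorem R_eq_Z (hc : NC a) (ha : Ad a ρ) : Rv a ρ = Zv ρ := by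
  obtain ⟨y, hy, hyQ⟩ := SetLike.not_le_iff_exists.mp ((h.am.loc a).not_le_Q (h.am.syl' ha.symm))
  rw [Rv, Ev_comm]
  exact le_antisymm (h.comm_le (h.not_nc_of_adj hc ha) ha.symm)
    ((h.Z_le_comm hc ha hy hyQ).trans (commutator_mono le_rfl (zpowers_le_of_mem hy)))

theorem b_one (hc : NC a) (ha : Ad a ρ) (hn : ¬ Zv a ≤ Qv ρ) : Nat.card (Ev a ρ) ≤ 32 := by
  have hρ := h.not_nc_of_adj hc ha
  obtain ⟨a₁, h1, e1⟩ := h.am.exists_other ha.symm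
  obtain ⟨s, hs, hsQ⟩ := SetLike.not_le_iff_exists.mp hn
  have k1 : Qv a ⊓ Qv ρ ⊓ Qv a₁ ≤ Hv ρ := fun x hx => mem_H.mpr ⟨hx.1.2, fun σ hσ => by
    by_cases e2 : σ = a
    · exact e2 ▸ hx.1.1
    by_cases e3 : a₁ = σ
    · exact e3 ▸ hx.2
    rw [← h.am.swap ha.symm h1 hσ e1 e2 e3 (h.c.Z_le_E' ha.symm hs) hsQ, Qv_smul]
    have := H7.conj_mem_cj (g := s) hx.2
    rwa [h.c.Q_le_C a hx.1.1 s hs, mul_inv_cancel_right] at this⟩
  have hZG : Zv a ≤ Gv ρ := (h.c.Z_le_E ha).trans inf_le_right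
  have k2 : Kv ρ ≤ centralizer (Hv ρ : Set G) :=
    h.am.K_le_of (H7.le_normalizer_centralizer (nH ρ)) hZG
      ((h.c.Z_le_C a).trans (H7.centralizer_anti (H_le' ha.symm))) hn
  have k3 : ¬ Zv a ⊓ Qv ρ ≤ Qv a₁ := fun hle => by
    have h2 : ⁅Qv ρ, Zv a⁆ ≤ Hv ρ := by
      have := H7.commutator_le_inf' (hZG.trans (nQ ρ)) ((h.am.Q_le_G ha.symm).trans (nZ a))
      exact le_trans (le_inf (le_inf (this.trans (inf_le_right.trans (h.c.Z_le_Q a)))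
        (this.trans inf_le_left)) (this.trans ((inf_comm _ _).le.trans hle))) k1
    have := H7.pResidualOf_le_centralizer (h.am.comm_K_le (nQ ρ) (nH ρ) hZG hn h2)
      (H7.commutator_eq_bot_iff'.mpr k2) ((pQ ρ).to_le (H_le ρ))
    rw [H7.pResidualOf_pResidualOf] at this
    exact (h.am.k3 ρ).not_le' (pQ ρ) ((h.c.char ρ).le_pCoreOf (Kv_le ρ) this)
  have hE : ¬ EN ρ := fun hE => k3 ((inf_le_inf_right _ (h.c.Z_le_Q a)).trans (hE a a₁ ha.symm h1))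
  have i1 : (Qv a₁).relIndex (Qv a ⊓ Qv ρ) ∣ 2 :=
    h.am.idx_two h1.symm (inf_le_right.trans (h.am.Q_le_E' h1.symm))
  have k4 : Hv ρ ⊔ Zv a = Qv a := by
    refine le_antisymm (sup_le (H_le' ha.symm) (h.c.Z_le_Q a)) ?_
    refine (h.c.Q_eq_sup ha hn).ge.trans (sup_le ?_ le_sup_right)
    exact (le_sup_of_relIndex_two i1 (inf_le_inf_right _ (h.c.Z_le_Q a)) k3).trans
      (sup_le_sup k1 inf_le_left)
  have k5 : IsElementaryAbelian 2 (Qv a) := by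
    refine ea_of_sqs_eq_bot (h.am.eq_bot ha ((sqs_le _).trans (h.am.Q_le_E ha))
      (le_normalizer_sqs (nQ a)) ?_)
    rw [← k4, sqs_sup (h.c.ea_Z a) ((H_le' ha.symm).trans (h.c.Q_le_C a))]
    exact le_normalizer_sqs (nH ρ)
  have k6 : Hv ρ ≤ Zv ρ := fun x hx => h.mem_Z hρ ha.symm (h.am.Q_le_E ha.symm (H_le ρ hx))
    (sq_eq_one_of_ea k5 (H_le' ha.symm hx)) (H7.le_centralizer_singleton_iff.mpr
      (h.C_le_of_not_en hE ha.symm (le_centralizer_iff.mp k2)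
        ((H_le' ha.symm).trans (H7.ea_le_centralizer k5)) hx))
  have k7 : (Zv ρ).relIndex (Qv a) ≤ 4 := by
    refine (relIndex_le_of_le_left (k1.trans k6) (relIndex_pos _ _).ne').trans ?_
    rw [show Qv a ⊓ Qv ρ ⊓ Qv a₁ = Qv a₁ ⊓ Qv ρ ⊓ Qv a by ac_rfl, inf_relIndex_right,
      ← relIndex_inf_mul_relIndex, inf_comm]
    exact Nat.mul_le_mul (relIndex_le_two i1)
      (relIndex_le_two (h.am.idx_two ha.symm (h.am.Q_le_E' ha.symm)))
  obtain ⟨ρ', h2, e2⟩ := h.am.exists_other ha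
  obtain ⟨g, hg, rfl⟩ := cg_neighbours_transitive ha h2
  have k8 : (Zv (g • ρ)).relIndex (Qv a) ≤ 4 := by
    rwa [← H7.cj_eq_of_mem_normalizer (nQ a hg), Zv_smul, relIndex_cj]
  have k9 := relIndex_inf_le (H := Zv ρ) (K := Zv (g • ρ)) (L := Qv a)
  rw [h.Z_disj hc ha h2 e2.symm, relIndex_bot_left] at k9
  have := k9.trans (Nat.mul_le_mul k7 k8)
  rw [h.am.card_E ha]
  omega

theorem not_en (m : Mn M₁ M₂ b) (hb : 2 ≤ b) (hf : Line f) (hc : ¬ Zv (f 0) ≤ Qv (f b))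
    (hρ : ¬ NC ρ) : ¬ EN ρ := fun hE => by
  have hE' : ∀ σ, ¬ NC σ → EN σ := fun σ hσ => h.en_of_en hρ hσ hE
  have n0 := h.nc_zero m (by omega) hf hc
  have n1 := h.nc_succ hf 0 1 n0
  have nb : ¬ NC (f b) := fun nb => hc (le_trans (le_inf (m.le_Q (hf.le 0 (b - 2) (b - 2)))
    (m.le_Q (hf.le 0 (b - 1) (b - 1)))) (hE' _ (h.nc_succ hf b (b - 1) nb) _ _ (hf.ad _ _)
      (hf.ad _ _)))
  have hb3 : 3 ≤ b := by
    by_contra hlt
    obtain rfl : b = 2 := by omega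
    exact nb (h.nc_succ' hf 1 2 n1)
  have hD : ∀ {ρ a : CosetVertex M₁ M₂}, ¬ NC ρ → Ad ρ a →
      Qv a ⊓ Qv ρ ≤ centralizer (Vv ρ : Set G) := fun hρ ha x hx =>
    h.H_le_C _ (mem_H.mpr ⟨hx.2, fun σ hσ => hE' _ hρ _ _ ha hσ hx⟩)
  have v1 : Vv (f 1) ≤ Qv (f (b - 1)) := m.V_le_Q (hf.le _ _ (b - 2))
  have v2 : Vv (f b) ≤ Qv (f 2) := m.V_le_Q (hf.le _ _ (b - 2))
  have v3 : Vv (f 1) ≤ Gv (f b) := v1.trans (h.am.Q_le_G (hf.ad _ _))
  have v4 : Vv (f b) ≤ Gv (f 1) := v2.trans (h.am.Q_le_G (hf.ad _ _))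
  have z0 : Zv (f 0) ≤ Vv (f 1) := Z_le_V (hf.ad _ _)
  have v5 : ¬ Vv (f b) ≤ Qv (f 1) := fun hle => hc (h.le_Q_of_C nb (z0.trans v3)
    (z0.trans (le_centralizer_iff.mp ((le_inf v2 hle).trans (hD n1 (hf.ad _ _))))))
  refine v5 (h.le_Q_of_comm n1 v4 ?_)
  have c1 : ⁅⁅Vv (f 1), Gv (f 1)⁆, Qv (f 1)⁆ ≤ ⊥ := by
    rw [commutator_comm (Vv (f 1))]
    refine H7.three_subgroups le_normalizer_of_normal le_normalizer_of_normal
      le_normalizer_of_normal ?_ ?_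
    · exact H7.commutator_le_of_le_centralizer
        ((h.G_le_C n1).trans (H7.centralizer_anti (h.comm_V n1)))
    · refine H7.commutator_le_of_le_centralizer (le_centralizer_iff.mp (le_trans ?_
        (hD n1 (hf.ad 1 2))))
      refine commutator_le_of_relIndex_two inf_le_right ?_ ?_ (nQ _)
      · rw [inf_relIndex_right]
        exact h.am.idx_two (hf.ad 2 1) (h.am.Q_le_E' (hf.ad 2 1))
      · refine H7.le_normalizer_iff_cj.mpr fun g hg => ?_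
        rw [H7.cj_inf, ← Qv_smul, ← Qv_smul, show g • f 1 = f 1 from hg]
        exact le_inf (hE' _ n1 _ _ (h.am.adj_smul (hf.ad _ _) hg) (hf.ad _ _)) inf_le_right
  have c2 : ⁅Vv (f 1), Vv (f b)⁆ ≤ Vv (f 1) ⊓ Vv (f b) :=
    H7.commutator_le_inf' (v4.trans (nV _)) (v3.trans (nV _))
  intro u hu
  have c3 : Vv (f 1) ≤ Qv (f 1) := m.V_le_Q (le_refl' _)
  refine h.mem_Z n1 (hf.ad 1 2) (h.am.Q_le_E (hf.ad _ _) (c3 (c2 hu).1)) ?_ ?_
  · exact sq_eq_one_of_ea (h.ea_V m hb3 _) (c2 hu).1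
  · rw [← h.am.Q_sup (hf.ad 1 2) (v2.trans (h.am.Q_le_E' (hf.ad _ _))) v5]
    refine sup_le (H7.le_centralizer_singleton_iff.mpr ?_) (H7.le_centralizer_singleton_iff.mpr ?_)
    · exact le_centralizer_iff.mp (H7.le_centralizer_of_commutator_le_bot c1)
        (commutator_mono le_rfl v4 hu)
    · exact h.V_comm m (le_refl' (f b)) (by omega) (c2 hu).2

theorem even_Z (m : Mn M₁ M₂ b) (hb : 1 ≤ b) (hf : Line f) (hc : ¬ Zv (f 0) ≤ Qv (f b))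
    (nb : NC (f b)) : Zv (f 1) = Zv (f (b - 1)) := by
  rw [← h.R_eq_Z (h.nc_zero m hb hf hc) (hf.ad 0 1), ← h.R_eq_Z nb (hf.ad b (b - 1))]
  exact h.c.R_eq_R (m.cr hb hf hc) nb

theorem even_q2 (m : Mn M₁ M₂ b) (hb : 1 ≤ b) (hf : Line f) (hc : ¬ Zv (f 0) ≤ Qv (f b))
    (nb : NC (f b)) : Q2 M₁ M₂ := by
  have c := m.cr hb hf hc
  have n0 := h.nc_zero m hb hf hc
  obtain ⟨y, hy, hyQ⟩ := SetLike.not_le_iff_exists.mp (h.c.symm c nb).nc
  refine h.q2_of_one n0 (hf.ad 0 1) (relIndex_dvd_two_of_forall fun x hx z hz hx' hz' => ?_)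
  have key : ∀ x ∈ Zv (f 0), x ∈ Qv (f b) → x ∈ Zv (f 1) := fun x hx hQ =>
    h.mem_Z_of_comm (h.nc_succ hf 0 1 n0) (hf.ad 1 0) hx (Ev_comm (f 0) _ ▸ h.c.Z'_le c hy) hyQ
      (h.c.Q_le_C _ hQ y hy)
  exact key _ (mul_mem hx hz) (mul_mem_of_relIndex_two (h.am.idx_two c.ga (h.c.Z_le c)) hx hz
    (fun hm => hx' (key x hx hm)) fun hm => hz' (key z hz hm))

theorem even_big (m : Mn M₁ M₂ b) (hb : 3 ≤ b) (hf : Line f) (hc : ¬ Zv (f 0) ≤ Qv (f b))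
    (nb : NC (f b)) : False := by
  have c := m.cr (by omega) hf hc
  have n0 := h.nc_zero m (by omega) hf hc
  have nε : NC (f (b - 2)) := h.nc_succ' hf _ _ (h.nc_succ hf b (b - 1) nb)
  have line2 : ∀ ρ δ, Ad (f 0) ρ → ρ ≠ f 1 → Ad ρ δ → δ ≠ f 0 →
      ∃ g, Line g ∧ g (-1) = ρ ∧ g (-2) = δ ∧ ∀ k, 0 ≤ k → g k = f k := by
    intro ρ δ h1 e1 h2 e2
    obtain ⟨g, hg, e3, e4⟩ := h.am.modify_left hf 0 h1 (by simpa using e1)
    have e3' : g (-1) = ρ := e3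
    obtain ⟨g', hg', e5, e6⟩ := h.am.modify_left hg (-1) (e3' ▸ h2)
      (by rw [show (-1 : ℤ) + 1 = 0 by omega, e4 0 le_rfl]; exact e2)
    exact ⟨g', hg', (e6 _ le_rfl).trans e3', e5, fun k hk => (e6 k (by omega)).trans (e4 k hk)⟩
  have key : ∀ ρ, Ad (f 0) ρ → ρ ≠ f 1 → ¬ Vv ρ ≤ Qv (f (b - 2)) → Zv ρ = Zv (f (b - 3)) := by
    intro ρ h1 e1 hn
    rw [V_le_iff] at hn
    push Not at hn
    obtain ⟨δ, h2, hn⟩ := hn
    obtain ⟨g, hg, rfl, rfl, e⟩ := line2 ρ δ h1 e1 h2 fun e =>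
      hn (e ▸ m.le_Q (hf.le 0 (b - 2) (b - 2)))
    rw [← e _ (by omega)] at hn nε ⊢
    have := h.even_Z m (by omega) (hg.shift (-2))
      (by simpa [neg_add_eq_sub] using hn) (by simpa [neg_add_eq_sub] using nε)
    convert this using 3 <;> omega
  obtain ⟨ρ, h1, e1, hV⟩ : ∃ ρ, Ad (f 0) ρ ∧ ρ ≠ f 1 ∧ Vv ρ ≤ Qv (f (b - 2)) := by
    obtain ⟨ρ, h1, e1⟩ := h.am.exists_other (hf.ad 0 1)
    obtain ⟨ρ', h2, e2, e3⟩ := h.am.exists_third (hf.ad 0 1) h1 e1.symm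
    by_contra hcon
    push Not at hcon
    have := h.Z_disj n0 h1 h2 e3.symm
    rw [key ρ h1 e1 (hcon ρ h1 e1), key ρ' h2 e2 (hcon ρ' h2 e2), inf_idem] at this
    exact h.am.Z_ne_bot _ this
  have hV' : ¬ Vv ρ ≤ Qv (f (b - 1)) := fun hle => by
    refine h.am.Z_ne_bot _ (eq_bot_iff.mpr ((Z_le_V h1.symm).trans (h.am.eq_bot h1
      ((m.V_le_Q (le_refl' ρ)).trans (h.am.Q_le_E' h1)) ?_ (nV ρ)).le))
    rw [← h.c.sup_eq_of_ne c nb h1 e1]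
    refine sup_le (inf_le_right.trans (nV ρ)) ?_
    have := h.c.le_normalizer_of_le c (hle.trans (h.am.Q_le_E' c.ga))
    rwa [sup_eq_right.mpr (Z_le_V h1.symm)] at this
  rw [V_le_iff] at hV'
  push Not at hV'
  obtain ⟨δ, h2, hn⟩ := hV'
  obtain ⟨g, hg, rfl, rfl, e⟩ := line2 ρ δ h1 e1 h2 fun e =>
    hn (e ▸ m.le_Q (hf.le 0 (b - 1) (b - 1)))
  have w1 : Wit (NC (M₁ := M₁) (M₂ := M₂)) (b - 1) := by
    obtain ⟨t, ht, htQ⟩ := SetLike.not_le_iff_exists.mp hc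
    exact ⟨_, hf.rev b, by simpa using nb, t, by simpa using htQ, fun k h1 h2 =>
      h.le_G m (hf.le 0 (b - k) b) le_rfl ht⟩
  have w2 : Wit (fun δ : CosetVertex M₁ M₂ => ¬ NC δ) (b - 1) := by
    obtain ⟨t, ht, htQ⟩ := SetLike.not_le_iff_exists.mp hn
    refine ⟨_, hf.rev (b - 1), by simpa using h.nc_succ hf b (b - 1) nb, t, by simpa using htQ,
      fun k h3 h4 => ?_⟩
    by_cases h5 : k = 0
    · simpa [h5] using h.am.Q_le_G (hf.ad (b - 2) (b - 1)) (hV (Z_le_V h2 ht))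
    · rw [← e _ (by omega)]
      exact h.le_G m (hg.le (-2) (b - 1 - k) b) le_rfl ht
  obtain ⟨x, hx⟩ := h.am.arc_trans (fun g δ hδ => hδ.smul g) h.mix w1 w2 b (by omega) f _ hf
    (hg.shift (-2)) (by
      have := h.nc_of_adj (h.not_nc_of_adj n0 h1) h2
      simp only [add_zero]
      tauto)
  have e1 := hx 0 le_rfl (by omega)
  have e2 := hx b (by omega) le_rfl
  simp only [add_zero, neg_add_eq_sub] at e1 e2
  have h3 := (Z_le_V h2).trans hV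
  rw [← e _ (by omega), ← e1, ← e2, Zv_smul, Qv_smul, H7.cj_le_cj_iff] at h3
  exact hc h3

theorem b_two (m : Mn M₁ M₂ 2) (hf : Line f) (hc : ¬ Zv (f 0) ≤ Qv (f (2 : ℕ))) :
    Nat.card (Ev (f 0) (f 1)) ≤ 128 := by
  have n0 := h.nc_zero m (by omega) hf hc
  have n1 := h.nc_succ hf 0 1 n0
  have n2 := h.nc_succ' hf 1 2 n1
  have c : Cr 1 (f 0) (f 1) (f 1) (f 2) := m.cr (by omega) hf hc
  have hall : ∀ ρ : CosetVertex M₁ M₂, ¬ NC ρ → AllCr ρ := fun ρ hρ => by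
    obtain ⟨g, rfl⟩ := h.exists_smul (δ := f 1) (μ := ρ) (by tauto)
    exact (h.c.allCr_of_one (hf.ad 1 0) (hf.ad 1 2) c.nc).smul g
  set a := f 0
  set ρ := f 1
  set a₁ := f 2
  have h1 : Ad ρ a := hf.ad 1 0
  have h2 : Ad ρ a₁ := hf.ad 1 2
  have e1 : a ≠ a₁ := hf.ne' 0 2
  obtain ⟨a₂, h3, e2, e3⟩ := h.am.exists_third h1 h2 e1
  obtain ⟨ρ', h4, e4⟩ := h.am.exists_other h1.symm
  obtain ⟨a', h5, e5⟩ := h.am.exists_other h4.symm
  have n4 := h.not_nc_of_adj n0 h4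
  have zE : ∀ {ρ c : CosetVertex M₁ M₂}, Ad a ρ → Ad ρ c → Zv c ≤ Ev a ρ := fun h1 h2 =>
    (m.le_Q (Ad.le h2.symm)).trans (h.am.Q_le_E' h1)
  have z1 : ¬ Zv a₁ ≤ Qv a := hall ρ n1 _ _ h2 h1 e1.symm
  have z2 : ¬ Zv a₂ ≤ Qv a := hall ρ n1 _ _ h3 h1 e2
  have z3 : ¬ Zv a' ≤ Qv a := hall ρ' n4 _ _ h5 h4.symm e5
  have k1 : ⁅Hv a, Kv a⁆ ≤ Zv a := by
    refine h.am.comm_K_le (nH a) (nZ a) ((zE h1.symm h2).trans inf_le_left) z1 ?_
    rw [commutator_comm]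
    exact ((commutator_mono le_rfl ((H_le' h1.symm).trans (h.am.Q_le_E h2))).trans
      (h.comm_le n1 h2)).trans (h.Z_le_Z n1 h1)
  obtain ⟨D, hD, hDK⟩ := (h.am.k3 a).exists_three
  have hDle : D ≤ Kv a := le_sup_left.trans hDK.le
  have hDQ : ¬ D ≤ Qv a := fun hle => (h.am.k3 a).not_le' (pQ a)
    (hDK.ge.trans (sup_le hle (S3L.pCoreOf_K.le.trans inf_le_left)))
  have zH : Zv a ≤ Hv a := fun x hx => mem_H.mpr ⟨h.c.Z_le_Q a hx, fun μ hμ => m.le_Q (Ad.le hμ) (by omega) hx⟩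
  have k2 : IsElementaryAbelian 2 (Hv a) := by
    have h6 := (CoprimeAct.of_isPGroup_right (not_two_dvd_of_odd (K3.odd_of_three hD))
      (H7.ea_isPGroup (h.c.ea_Z a)) ((hDle.trans (Kv_le a)).trans (nZ a))).le_sup_of_commutator_le zH
        ((commutator_mono le_rfl hDle).trans k1)
    have h7 : sqs (Hv a) ≤ centralizer (D : Set G) := by
      rw [le_antisymm h6 (sup_le zH inf_le_left), sup_comm,
        sqs_sup (h.c.ea_Z a) ((inf_le_left.trans (H_le a)).trans (h.c.Q_le_C a))]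
      exact (sqs_le _).trans inf_le_right
    refine ea_of_sqs_eq_bot (eq_bot_iff.mpr (le_trans (le_inf ((sqs_le _).trans (H_le a)) ?_)
      (h.CK n0).le))
    exact le_centralizer_iff.mp (h.am.K_le_of (H7.le_normalizer_centralizer
      (le_normalizer_sqs (nH a))) (hDle.trans (Kv_le a)) (le_centralizer_iff.mp h7) hDQ)
  let X := Zv a₁ ⊔ Zv a₂ ⊔ Zv a' ⊔ Hv a
  have hXG : X ≤ Gv a := sup_le (sup_le (sup_le ((zE h1.symm h2).trans inf_le_left)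
    ((zE h1.symm h3).trans inf_le_left)) ((zE h4 h5).trans inf_le_left)) ((H_le a).trans (Qv_le a))
  have hXQ : X ⊔ Qv a = Gv a := by
    refine le_antisymm (sup_le hXG (Qv_le a)) (h.am.le_of_two h1.symm h4 e4.symm ?_ ?_)
    · rw [← h.am.Q_sup h1.symm (zE h1.symm h2) z1]
      exact sup_le le_sup_right (((le_sup_left.trans le_sup_left).trans le_sup_left).trans le_sup_left)
    · rw [← h.am.Q_sup h4 (zE h4 h5) z3]
      exact sup_le le_sup_right ((le_sup_right.trans le_sup_left).trans le_sup_left)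
  have hHN : Hv a ≤ X ⊓ Qv a := le_inf le_sup_right (H_le a)
  have hN : Gv a ≤ normalizer ((X ⊓ Qv a : Subgroup G) : Set G) := by
    rw [← hXQ]
    refine sup_le (H7.le_normalizer_inf le_normalizer (hXG.trans (nQ a)))
      (H7.le_normalizer_of_commutator_le inf_le_right (le_trans (fun x hx => mem_H.mpr
        ⟨commutator_le_self' _ hx, fun μ hμ => ?_⟩) hHN))
    have := commutator_le_of_relIndex_two (X := Qv μ ⊓ Qv a) (Y := Qv a) (A := Qv a) inf_le_right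
      (by rw [inf_relIndex_right]; exact h.am.idx_two hμ.symm (h.am.Q_le_E' hμ.symm))
      (H7.le_normalizer_inf ((h.am.Q_le_G hμ).trans (nQ μ)) le_normalizer) le_normalizer
    exact (this hx).1
  obtain ⟨v, hv, hvH⟩ : ∃ v ∈ X ⊓ Qv a ⊓ Qv ρ, v ∉ Hv a := by
    obtain ⟨d, hd, hn⟩ := SetLike.not_le_iff_exists.mp
      (h.c.not_comm (h.c.cr_two c (hall ρ n1) h2 h3 e3.symm) (h.nc_of_adj n1 h3))
    rw [mem_centralizer_iff] at hn
    push Not at hn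
    obtain ⟨d', hd', hn⟩ := hn
    have hq := h.even_q2 m (by omega) hf hc n2
    have key : ∀ {c : CosetVertex M₁ M₂} {d : G}, Ad ρ c → ¬ Zv c ≤ Qv a → d ∈ Zv c → d ∉ Zv ρ →
        d ∉ Qv a := fun hc hn hd hd' hm => hn ((h.Z_le_sup_zpowers hq n1 hc hd hd').trans
          (sup_le ((h.Z_le_Z n1 h1).trans (h.c.Z_le_Q a)) (zpowers_le_of_mem hm)))
    refine ⟨d * d', ⟨⟨mul_mem (mem_sup_left (mem_sup_left (mem_sup_left hd)))
      (mem_sup_left (mem_sup_left (mem_sup_right hd'))), (h.am.loc a).mul_mem_Q (h.am.syl h1.symm)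
        (zE h1.symm h2 hd) (zE h1.symm h3 hd') (key h2 z1 hd fun hm => hn ?_)
        (key h3 z2 hd' fun hm => hn ?_)⟩, mul_mem (m.le_Q (Ad.le h2.symm) (by omega) hd)
        (m.le_Q (Ad.le h3.symm) (by omega) hd')⟩, fun hm => hn (comm_of_sq
          (sq_eq_one_of_ea (h.c.ea_Z _) hd) (sq_eq_one_of_ea (h.c.ea_Z _) hd')
          (sq_eq_one_of_ea k2 hm)).symm⟩
    · exact h.c.Z_comm _ (h.Z_le_Z n1 h3 hm) d' hd'
    · exact (h.c.Z_comm _ (h.Z_le_Z n1 h2 hm) d hd).symm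
  have k3 : (X ⊓ Qv a).relIndex (Qv a) ≤ 2 := by
    have i1 := relIndex_mul_relIndex _ _ _ (le_inf hHN (H_le' h1.symm)) (inf_le_left (b := Qv ρ))
    have i2 := relIndex_mul_relIndex _ _ _ hHN inf_le_right
    have i3 := h.am.relIndex_H a
    have i4 : (Hv a).relIndex (X ⊓ Qv a ⊓ Qv ρ) ≠ 1 := fun e => hvH (relIndex_eq_one.mp e hv)
    have i5 : (X ⊓ Qv a ⊓ Qv ρ).relIndex (X ⊓ Qv a) ≠ 1 := fun e => by
      refine hvH (mem_H.mpr ⟨hv.1.2, fun μ hμ => ?_⟩)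
      obtain ⟨g, hg, rfl⟩ := cg_neighbours_transitive h1.symm hμ
      rw [Qv_smul, mem_cj]
      have := (mem_normalizer_iff.mp (hN (inv_mem hg)) v).mp hv.1
      rw [inv_inv] at this
      exact (relIndex_eq_one.mp e this).2
    have i6 := relIndex_pos (Hv a) (X ⊓ Qv a ⊓ Qv ρ)
    have i7 := relIndex_pos (X ⊓ Qv a ⊓ Qv ρ) (X ⊓ Qv a)
    have i8 : 2 * 2 ≤ (Hv a).relIndex (X ⊓ Qv a) := i1 ▸ Nat.mul_le_mul (by omega) (by omega)
    have i9 := Nat.mul_le_mul_right ((X ⊓ Qv a).relIndex (Qv a)) i8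
    omega
  have k4 : Kv a ≤ X := by
    have i1 : X.relIndex (Gv a) ≤ 2 := by
      have j1 := H7.card_sup_mul_card_inf (hXG.trans (nQ a))
      have j2 := H7.relIndex_mul_card_of_le hXG
      have j3 := H7.relIndex_mul_card_of_le (inf_le_right : X ⊓ Qv a ≤ Qv a)
      rw [hXQ, ← j2, ← j3] at j1
      have j4 : 0 < Nat.card X * Nat.card ↥(X ⊓ Qv a) := Nat.mul_pos Nat.card_pos Nat.card_pos
      have : X.relIndex (Gv a) = (X ⊓ Qv a).relIndex (Qv a) :=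
        Nat.eq_of_mul_eq_mul_right j4 (by rw [← mul_assoc, j1]; ring)
      omega
    have i2 : X.relIndex (Gv a) ∣ 2 := by
      have := relIndex_pos X (Gv a)
      obtain e | e : X.relIndex (Gv a) = 1 ∨ X.relIndex (Gv a) = 2 := by omega
      · rw [e]; exact one_dvd _
      · rw [e]
    refine H7.pResidualOf_le_of_pow_mem fun x hx => ⟨1, ?_⟩
    obtain ⟨c, hc⟩ := i2
    have := pow_mem (pow_relIndex_mem (le_normalizer_of_relIndex_two hXG ⟨c, hc⟩) hx) c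
    rwa [← pow_mul, ← hc] at this
  have k5 : Nat.card (Hv a) ≤ 8 := by
    have j1 : Qv a₁ ⊓ Qv a₂ ⊓ Qv a' ⊓ Hv a = ⊥ := by
      refine eq_bot_iff.mpr (le_trans (le_inf (inf_le_right.trans (H_le a)) (le_trans ?_
        (H7.centralizer_anti k4))) (h.CK n0).le)
      rw [H7.centralizer_sup, H7.centralizer_sup, H7.centralizer_sup]
      exact inf_le_inf (inf_le_inf (inf_le_inf (h.c.Q_le_C _) (h.c.Q_le_C _)) (h.c.Q_le_C _))
        (H7.ea_le_centralizer k2)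
    have j2 : ∀ {ρ c : CosetVertex M₁ M₂}, Ad a ρ → Ad ρ c → (Qv c).relIndex (Hv a) ≤ 2 :=
      fun h1 h2 => relIndex_le_two (h.am.idx_two h2.symm ((H_le' h1).trans (h.am.Q_le_E' h2.symm)))
    rw [← relIndex_bot_left, ← j1, inf_relIndex_right]
    exact relIndex_inf_le.trans (Nat.mul_le_mul (relIndex_inf_le.trans
      (Nat.mul_le_mul (j2 h1.symm h2) (j2 h1.symm h3))) (j2 h4 h5))
  have k6 := H7.relIndex_mul_card_of_le (H_le a)
  have k7 := Nat.mul_le_mul (h.am.relIndex_H a) k5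
  rw [h.am.card_E h1.symm]
  omega

end S3M

end Cfsg.H9
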