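import Cfsg.Agent.H9.S3Final

/-!
Lines (bi-infinite non-backtracking walks) in the coset graph of an `(S₃, S₃)`-amalgam and
transitivity on arcs.
-/

set_option autoImplicit false
set_option linter.style.haveILetI false
set_option linter.unusedSectionVars false

namespace Cfsg.H9

open Subgroup MulAction
open Cfsg.H7 (cj mem_cj stab)
open scoped commutatorElement

universe u

variable {G : Type u} [Group G] {M₁ M₂ : Subgroup G}

theorem Near.trans {m n : ℕ} {δ μ ν : CosetVertex M₁ M₂} (h : Near m δ μ) (h' : Near n μ ν) :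
    Near (m + n) δ ν := by
  obtain ⟨w, hw⟩ := h
  obtain ⟨w', hw'⟩ := h'
  exact ⟨w.append w', by rw [SimpleGraph.Walk.length_append, hw, hw']⟩

/-- there is a walk of length at most `n` -/
def Le (n : ℕ) (δ μ : CosetVertex M₁ M₂) : Prop := ∃ m ≤ n, Near m δ μ

theorem Le.symm {n : ℕ} {δ μ : CosetVertex M₁ M₂} (h : Le n δ μ) : Le n μ δ :=
  let ⟨m, h1, h2⟩ := h; ⟨m, h1, h2.symm⟩

theorem Le.trans {m n : ℕ} {δ μ ν : CosetVertex M₁ M₂} (h : Le m δ μ) (h' : Le n μ ν) :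
    Le (m + n) δ ν :=
  let ⟨_, h1, h2⟩ := h; let ⟨_, h3, h4⟩ := h'; ⟨_, Nat.add_le_add h1 h3, h2.trans h4⟩

theorem Ad.le {δ μ : CosetVertex M₁ M₂} (h : Ad δ μ) : Le 1 δ μ := ⟨1, le_rfl, h.near⟩

theorem Le.cons {n : ℕ} {δ μ ν : CosetVertex M₁ M₂} (h : Ad δ μ) (h' : Le n μ ν) :
    Le (1 + n) δ ν := h.le.trans h'

theorem le_refl' (δ : CosetVertex M₁ M₂) : Le 0 δ δ := ⟨0, le_rfl, near_refl δ⟩

/-- a bi-infinite non-backtracking walk -/
structure Line (f : ℤ → CosetVertex M₁ M₂) : Prop where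
  adj : ∀ k, Ad (f k) (f (k + 1))
  ne : ∀ k, f k ≠ f (k + 2)

namespace Line

variable {f g : ℤ → CosetVertex M₁ M₂}

theorem ad (h : Line f) (i j : ℤ) (e : j = i + 1 ∨ i = j + 1 := by omega) : Ad (f i) (f j) := by
  rcases e with rfl | rfl
  · exact h.adj i
  · exact (h.adj j).symm

theorem ne' (h : Line f) (i j : ℤ) (e : j = i + 2 ∨ i = j + 2 := by omega) : f i ≠ f j := by
  rcases e with rfl | rfl
  · exact h.ne i
  · exact (h.ne j).symm

theorem near (h : Line f) (i : ℤ) (n : ℕ) : Near n (f i) (f (i + n)) := by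
  induction n with
  | zero => simpa using near_refl (f i)
  | succ n ih => exact ih.snoc (h.ad _ _ (by push_cast; omega))

theorem near' (h : Line f) (i j : ℤ) (n : ℕ) (e : j = i + n := by omega) : Near n (f i) (f j) :=
  e ▸ h.near i n

theorem le (h : Line f) (i j : ℤ) (n : ℕ) (e : j ≤ i + n ∧ i ≤ j + n := by omega) :
    Le n (f i) (f j) := by
  rcases le_total i j with hij | hij
  · exact ⟨(j - i).toNat, by omega, h.near' i j _ (by omega)⟩
  · exact ⟨(i - j).toNat, by omega, (h.near' j i _ (by omega)).symm⟩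

theorem shift (h : Line f) (c : ℤ) : Line fun k => f (c + k) :=
  ⟨fun k => h.ad _ _, fun k => h.ne' _ _⟩

theorem rev (h : Line f) (c : ℤ) : Line fun k => f (c - k) :=
  ⟨fun k => h.ad _ _, fun k => h.ne' _ _⟩

theorem smul (h : Line f) (x : G) : Line fun k => x • f k :=
  ⟨fun k => cg_adj_smul (h.adj k) x, fun k e => h.ne k (smul_left_cancel x e)⟩

theorem glue (hf : Line f) (hg : Line g) (i : ℤ) (e : f i = g i) (hne : f (i - 1) ≠ g (i + 1)) :
    Line fun k => if k ≤ i then f k else g k := by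
  refine ⟨fun k => ?_, fun k => ?_⟩
  · by_cases h1 : k + 1 ≤ i
    · rw [if_pos (by omega), if_pos h1]; exact hf.adj k
    · by_cases h2 : k ≤ i
      · obtain rfl : k = i := by omega
        rw [if_pos h2, if_neg h1, e]; exact hg.adj k
      · rw [if_neg h2, if_neg h1]; exact hg.adj k
  · by_cases h1 : k + 2 ≤ i
    · rw [if_pos (by omega), if_pos h1]; exact hf.ne k
    · by_cases h2 : k ≤ i
      · rw [if_pos h2, if_neg h1]
        by_cases h3 : k = i
        · rw [h3, e]; exact hg.ne i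
        · obtain rfl : k = i - 1 := by omega
          rwa [show i - 1 + 2 = i + 1 by omega]
      · rw [if_neg h2, if_neg h1]; exact hg.ne k

end Line

namespace S3Am

variable [Finite G] (h : S3Am M₁ M₂) {δ μ ν : CosetVertex M₁ M₂} {f g : ℤ → CosetVertex M₁ M₂}
include h

theorem swap (h1 : Ad δ μ) {ν' : CosetVertex M₁ M₂} (h2 : Ad δ ν) (h3 : Ad δ ν') (hne : ν ≠ μ)
    (hne' : ν' ≠ μ) (e : ν ≠ ν') {x : G} (hx : x ∈ Ev δ μ) (hxQ : x ∉ Qv δ) : x • ν = ν' := by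
  obtain ⟨t, ht, rfl⟩ := h.two_trans h1 h2 h3 hne hne'
  have htQ : t⁻¹ ∉ Qv δ := fun hm => e (h.Q_le_G h2 (inv_mem_iff.mp hm)).symm
  have := h.Q_le_G h3 ((h.loc δ).mul_mem_Q (h.syl h1) hx (inv_mem ht) hxQ htQ)
  rwa [mem_stabilizer_iff, mul_smul, inv_smul_smul] at this

theorem smul_ne (h1 : Ad δ μ) (h2 : Ad δ ν) (hne : ν ≠ μ) {x : G} (hx : x ∈ Ev δ μ)
    (hxQ : x ∉ Qv δ) : x • ν ≠ ν := fun e => hxQ ((h.E_inf h1 h2 hne.symm).le ⟨hx, hx.1, e⟩)

theorem adj_smul (h2 : Ad δ ν) {x : G} (hx : x ∈ Gv δ) : Ad δ (x • ν) := by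
  have := cg_adj_smul h2 x
  rwa [show x • δ = δ from hx] at this

theorem smul_ne' (hne : ν ≠ μ) {x : G} (hx : x ∈ Gv μ) : x • ν ≠ μ := fun e =>
  hne (smul_left_cancel x (e.trans (show x • μ = μ from hx).symm))

theorem eq_of_three {ρ σ : CosetVertex M₁ M₂} (h1 : Ad δ μ) (h2 : Ad δ ν) (h3 : Ad δ ρ)
    (e1 : ν ≠ μ) (e2 : ρ ≠ μ) (e3 : ν ≠ ρ) (h4 : Ad δ σ) : σ = μ ∨ σ = ν ∨ σ = ρ := by
  by_contra hc
  push Not at hc
  obtain ⟨t, ht, hn⟩ := SetLike.not_le_iff_exists.mp ((h.loc δ).not_le_Q (h.syl h1))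
  exact hc.2.2 ((h.swap h1 h2 h4 e1 hc.1 hc.2.1.symm ht hn).symm.trans
    (h.swap h1 h2 h3 e1 e2 e3 ht hn))

theorem exists_ray (ha : Ad δ μ) : ∃ r : ℕ → CosetVertex M₁ M₂, r 0 = δ ∧ r 1 = μ ∧
    (∀ n, Ad (r n) (r (n + 1))) ∧ ∀ n, r n ≠ r (n + 2) := by
  let E := {p : CosetVertex M₁ M₂ × CosetVertex M₁ M₂ // Ad p.1 p.2}
  let step : E → E := fun p => ⟨(p.1.2, (h.exists_other p.2.symm).choose),
    (h.exists_other p.2.symm).choose_spec.1⟩
  refine ⟨fun n => (step^[n] ⟨(δ, μ), ha⟩).1.1, rfl, rfl, fun n => ?_, fun n => ?_⟩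
  · simp only [Function.iterate_succ_apply']
    exact (step^[n] ⟨(δ, μ), ha⟩).2
  · simp only [Function.iterate_succ_apply']
    exact (h.exists_other (step^[n] ⟨(δ, μ), ha⟩).2.symm).choose_spec.2.symm

theorem exists_line (ha : Ad δ μ) : ∃ f, Line f ∧ f 0 = δ ∧ f 1 = μ := by
  obtain ⟨r, r0, r1, r2, r3⟩ := h.exists_ray ha
  obtain ⟨s, s0, s1, s2, s3⟩ := h.exists_ray ha.symm
  refine ⟨fun k => if 0 ≤ k then r k.toNat else s (1 - k).toNat, ⟨fun k => ?_, fun k => ?_⟩,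
    by simpa using r0, by simpa using r1⟩
  · by_cases h1 : 0 ≤ k
    · rw [if_pos h1, if_pos (by omega), show (k + 1).toNat = k.toNat + 1 by omega]
      exact r2 _
    · rw [if_neg h1]
      by_cases h2 : 0 ≤ k + 1
      · obtain rfl : k = -1 := by omega
        rw [if_pos h2]
        have := (s2 1).symm
        rw [s1, ← r0] at this
        exact this
      · rw [if_neg h2, show (1 - k).toNat = (1 - (k + 1)).toNat + 1 by omega]
        exact (s2 _).symm
  · by_cases h1 : 0 ≤ k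
    · rw [if_pos h1, if_pos (by omega), show (k + 2).toNat = k.toNat + 2 by omega]
      exact r3 _
    · rw [if_neg h1]
      by_cases h2 : 0 ≤ k + 2
      · rw [if_pos h2]
        obtain rfl | rfl : k = -1 ∨ k = -2 := by omega
        · have := (s3 0).symm
          rw [s0, ← r1] at this
          exact this
        · have := (s3 1).symm
          rw [s1, ← r0] at this
          exact this
      · rw [if_neg h2, show (1 - k).toNat = (1 - (k + 2)).toNat + 2 by omega]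
        exact (s3 _).symm

theorem modify_left (hf : Line f) (i : ℤ) (h1 : Ad (f i) ν) (hne : ν ≠ f (i + 1)) :
    ∃ g, Line g ∧ g (i - 1) = ν ∧ ∀ k, i ≤ k → g k = f k := by
  obtain ⟨t, ht, e⟩ := h.two_trans (hf.adj i) (hf.ad i (i - 1)) h1 (hf.ne' _ _) hne
  refine ⟨_, (hf.smul t).glue hf i ht.1 (e ▸ hne), by simpa using e, fun k hk => ?_⟩
  by_cases h2 : k ≤ i
  · obtain rfl : k = i := by omega
    simpa using ht.1
  · simp [h2]

theorem exists_line_of_near {n : ℕ} (hn : Near n δ μ) :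
    ∃ m ≤ n, ∃ f, Line f ∧ f 0 = δ ∧ f m = μ := by
  induction n generalizing δ with
  | zero =>
    obtain ⟨ν, ha⟩ := cg_exists_adj δ
    obtain ⟨f, hf, e, -⟩ := h.exists_line ha
    exact ⟨0, le_rfl, f, hf, e, e.trans (near_zero_iff.mp hn)⟩
  | succ n ih =>
    obtain ⟨ν, h1, h2⟩ := hn.first
    obtain ⟨m, hm, f, hf, rfl, rfl⟩ := ih h2
    by_cases e : δ = f 1
    · rcases m with _ | m
      · exact ⟨1, by omega, _, hf.rev 1, by simpa using e.symm, by simp⟩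
      · exact ⟨m, by omega, _, hf.shift 1, by simpa using e.symm, by simp [add_comm]⟩
    · obtain ⟨g, hg, e1, e2⟩ := h.modify_left hf 0 h1.symm (by simpa using e)
      exact ⟨m + 1, by omega, _, hg.shift (-1), by simpa using e1, by simpa using e2 m (by omega)⟩

end S3Am

/-- a line through a vertex with property `P` whose initial arc of length `N` is fixed by an element
outside `Q` of the initial vertex -/
def Wit (P : CosetVertex M₁ M₂ → Prop) (N : ℕ) : Prop :=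
  ∃ f, Line f ∧ P (f 0) ∧ ∃ x : G, x ∉ Qv (f 0) ∧ ∀ k : ℤ, 0 ≤ k → k ≤ N → x ∈ Gv (f k)

theorem Wit.mono {P : CosetVertex M₁ M₂ → Prop} {N N' : ℕ} (h : Wit P N) (hle : N' ≤ N) :
    Wit P N' :=
  let ⟨f, h1, h2, x, h3, h4⟩ := h
  ⟨f, h1, h2, x, h3, fun k h5 h6 => h4 k h5 (by omega)⟩

theorem S3Am.arc_trans [Finite G] (h : S3Am M₁ M₂) {P : CosetVertex M₁ M₂ → Prop}
    (hP : ∀ (g : G) δ, P δ → P (g • δ)) (hmix : ∀ δ μ, Ad δ μ → (P δ ↔ ¬ P μ)) {N : ℕ}
    (w1 : Wit P N) (w2 : Wit (fun δ => ¬ P δ) N) (n : ℕ) (hn : n ≤ N + 1) :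
    ∀ f f' : ℤ → CosetVertex M₁ M₂, Line f → Line f' → (P (f 0) ↔ P (f' 0)) →
      ∃ g : G, ∀ k : ℤ, 0 ≤ k → k ≤ n → g • f k = f' k := by
  have hP' : ∀ (g : G) δ, P (g • δ) ↔ P δ := fun g δ =>
    ⟨fun h1 => by simpa using hP g⁻¹ _ h1, hP g δ⟩
  have base : ∀ f f' : ℤ → CosetVertex M₁ M₂, Line f → (P (f 0) ↔ P (f' 0)) →
      ∃ g : G, g • f 0 = f' 0 := by
    intro f f' hf e
    refine h.all_of_edge (P := fun δ => (P (f 0) ↔ P δ) → ∃ g : G, g • f 0 = δ) ?_ (hf.adj 0)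
      (fun _ => ⟨1, one_smul _ _⟩) (fun e' => ?_) _ e
    · intro g δ h1 h2
      obtain ⟨g', rfl⟩ := h1 (h2.trans (hP' g δ))
      exact ⟨g * g', mul_smul _ _ _⟩
    · have := hmix _ _ (hf.adj 0)
      tauto
  induction n with
  | zero =>
    intro f f' hf _ e
    obtain ⟨g, hg⟩ := base f f' hf e
    exact ⟨g, fun k h1 h2 => by rwa [show k = 0 by omega]⟩
  | succ n ih =>
    intro f f' hf hf' e
    have e1 : P (f 1) ↔ P (f' 1) := by
      have h1 := hmix _ _ (hf.ad 0 1)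
      have h2 := hmix _ _ (hf'.ad 0 1)
      tauto
    obtain ⟨g, hg⟩ := ih (by omega) _ _ (hf.shift 1) (hf'.shift 1) (by simpa using e1)
    have hg' : ∀ k : ℤ, 1 ≤ k → k ≤ n + 1 → g • f k = f' k := fun k h1 h2 => by
      simpa using hg (k - 1) (by omega) (by omega)
    have a1 : Ad (f' 1) (g • f 0) := hg' 1 le_rfl (by omega) ▸ cg_adj_smul (hf.ad 1 0) g
    suffices ∃ x : G, x • g • f 0 = f' 0 ∧ ∀ k : ℤ, 1 ≤ k → k ≤ n + 1 → x ∈ Gv (f' k) by
      obtain ⟨x, h1, h2⟩ := this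
      refine ⟨x * g, fun k h3 h4 => ?_⟩
      rw [mul_smul]
      by_cases h5 : k = 0
      · rwa [h5]
      · rw [hg' k (by omega) (by push_cast at h4; omega)]
        exact h2 k (by omega) (by push_cast at h4; omega)
    by_cases e2 : g • f 0 = f' 0
    · exact ⟨1, by rwa [one_smul], fun _ _ _ => one_mem _⟩
    rcases n with _ | n
    · obtain ⟨x, hx, e3⟩ := cg_neighbours_transitive a1 (hf'.ad 1 0)
      exact ⟨x, e3, fun k h1 h2 => by rwa [show k = 1 by omega]⟩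
    obtain ⟨w, hw, e3, x, hxQ, hx⟩ : ∃ w, Line w ∧ (P (w 0) ↔ P (f' 1)) ∧ ∃ x : G, x ∉ Qv (w 0) ∧
        ∀ k : ℤ, 0 ≤ k → k ≤ N → x ∈ Gv (w k) := by
      by_cases h1 : P (f' 1)
      · obtain ⟨w, h2, h3, h4⟩ := w1
        exact ⟨w, h2, by tauto, h4⟩
      · obtain ⟨w, h2, h3, h4⟩ := w2
        exact ⟨w, h2, by tauto, h4⟩
    obtain ⟨y, hy⟩ := ih (by omega) _ _ hw (hf'.shift 1) (by simpa using e3)
    have hx' : ∀ k : ℤ, 1 ≤ k → k ≤ (n + 1 : ℕ) + 1 → y * x * y⁻¹ ∈ Gv (f' k) := fun k h1 h2 => by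
      have := hy (k - 1) (by omega) (by omega)
      simp only [add_sub_cancel] at this
      rw [← this, Gv_smul]
      exact H7.conj_mem_cj (hx _ (by omega) (by omega))
    refine ⟨y * x * y⁻¹, h.swap (hf'.ad 1 2) a1 (hf'.ad 1 0) ?_ (hf'.ne' 0 2) e2
      ⟨hx' 1 le_rfl (by omega), hx' 2 (by omega) (by push_cast; omega)⟩ ?_, hx'⟩
    · rw [← hg' 2 (by omega) (by push_cast; omega)]
      exact fun e => hf.ne' 0 2 (by omega) (smul_left_cancel g e)
    · have := hy 0 le_rfl (by omega)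
      simp only [add_zero] at this
      rwa [← this, Qv_smul, H7.conj_mem_cj_iff]

end Cfsg.H9
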