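import Cfsg.Agent.H9.S3Line

/-!
Amalgams of type `(S₃, S₃)` and characteristic two in which one vertex stabilizer centralizes
`Ω₁(Z(T))`: local facts.
-/

set_option autoImplicit false
set_option linter.style.haveILetI false
set_option linter.unusedSectionVars false

namespace Cfsg.H9

open Subgroup MulAction
open Cfsg.H7 (cj mem_cj stab)
open scoped commutatorElement

universe u

variable {G : Type u} [Group G] {M₁ M₂ : Subgroup G}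

theorem commutator_le_of_relIndex_two {X Y A : Subgroup G} (hXY : X ≤ Y) (h : X.relIndex Y ∣ 2)
    (h1 : A ≤ normalizer (X : Set G)) (h2 : A ≤ normalizer (Y : Set G)) : ⁅Y, A⁆ ≤ X := by
  refine commutator_le.mpr fun y hy a ha => ?_
  rw [commutatorElement_def, mul_assoc, mul_assoc, ← mul_assoc a]
  by_cases hyX : y ∈ X
  · exact mul_mem hyX ((mem_normalizer_iff.mp (h1 ha) _).mp (inv_mem hyX))
  · exact mul_mem_of_relIndex_two h hy ((mem_normalizer_iff.mp (h2 ha) _).mp (inv_mem hy)) hyX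
      fun hm => hyX (inv_mem_iff.mp ((mem_normalizer_iff.mp (h1 ha) _).mpr hm))

theorem le_sup_of_relIndex_two {X Y A : Subgroup G} (h : X.relIndex Y ∣ 2) (hA : A ≤ Y)
    (hn : ¬ A ≤ X) : Y ≤ (Y ⊓ X) ⊔ A := by
  obtain ⟨a, ha, haX⟩ := SetLike.not_le_iff_exists.mp hn
  intro y hy
  by_cases hyX : y ∈ X
  · exact mem_sup_left ⟨hy, hyX⟩
  · have := mul_mem_of_relIndex_two h hy (hA (inv_mem ha)) hyX fun hm => haX (inv_mem_iff.mp hm)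
    rw [show y = y * a⁻¹ * a by group]
    exact mul_mem (mem_sup_left ⟨mul_mem hy (hA (inv_mem ha)), this⟩) (mem_sup_right ha)

theorem relIndex_dvd_two_of_le {X Y A : Subgroup G} (h : X.relIndex Y ∣ 2) (hA : A ≤ Y) :
    X.relIndex A ∣ 2 :=
  relIndex_dvd_two_of_forall fun _ ha _ hb => mul_mem_of_relIndex_two h (hA ha) (hA hb)

theorem relIndex_le_two {X Y : Subgroup G} (h : X.relIndex Y ∣ 2) : X.relIndex Y ≤ 2 :=
  Nat.le_of_dvd (by norm_num) h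

theorem S3L.pCoreOf_K_le [Finite G] {P : Subgroup G} (h : S3L P) :
    pCoreOf 2 (pResidualOf 2 P) ≤ ⁅pCoreOf 2 P, pResidualOf 2 P⁆ := by
  have hK := h.k3
  have hO : pCoreOf 2 (pResidualOf 2 P) = _ := S3L.pCoreOf_K
  set Q := pCoreOf 2 P
  set K := pResidualOf 2 P
  have hQp : IsPGroup 2 Q := H7.isPGroup_pCoreOf 2 P
  have hQP : Q ≤ P := H7.pCoreOf_le 2 P
  have hKP : K ≤ P := H7.pResidualOf_le 2 P
  have hQn : P ≤ normalizer (Q : Set G) := H7.le_normalizer_pCoreOf 2 P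
  have hKn : P ≤ normalizer (K : Set G) := H7.le_normalizer_pResidualOf 2 P
  have hWQ : ⁅Q, K⁆ ≤ Q := H7.commutator_le_left_of_le_normalizer (hKP.trans hQn)
  have hWK : ⁅Q, K⁆ ≤ K := H7.commutator_le_right_of_le_normalizer (hQP.trans hKn)
  have hWn : P ≤ normalizer ((⁅Q, K⁆ : Subgroup G) : Set G) := H7.le_normalizer_commutator hQn hKn
  obtain ⟨D, hD, hDK⟩ := hK.exists_three
  have hDle : D ≤ K := le_sup_left.trans hDK.le
  have h7 : K ≤ ⁅Q, K⁆ ⊔ D := by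
    have h8 : Q ≤ normalizer ((⁅Q, K⁆ ⊔ D : Subgroup G) : Set G) := by
      refine H7.le_normalizer_of_commutator_le le_rfl (le_trans ?_ le_sup_left)
      rw [commutator_comm]
      exact commutator_mono le_rfl (sup_le hWK hDle)
    refine le_trans ?_ (H7.pResidualOf_sup_le hQp h8)
    rw [← hK.res]
    refine H7.pResidualOf_mono ?_
    rw [hK.res]
    exact hDK.ge.trans (sup_le (le_sup_right.trans le_sup_right)
      ((hO.le.trans inf_le_left).trans le_sup_left))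
  have h9 : D ⊓ Q = ⊥ := by
    rw [inf_comm]
    exact H7.inf_eq_bot_of_isPGroup_of_coprime hQp (Nat.coprime_two_right.mpr (K3.odd_of_three hD))
  have := H7.dedekind_right (B := D) hWQ ((hDle.trans hKP).trans hWn)
  rw [h9, sup_bot_eq] at this
  exact hO.le.trans ((le_inf (inf_le_right.trans h7) inf_le_left).trans this.le)

/-- `V_δ`, generated by the `Z_μ` of the neighbours -/
def Vv (δ : CosetVertex M₁ M₂) : Subgroup G := ⨆ μ : {μ // Ad δ μ}, Zv μ.1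

/-- `W_δ`, generated by the `V_μ` of the neighbours -/
def Wv (δ : CosetVertex M₁ M₂) : Subgroup G := ⨆ μ : {μ // Ad δ μ}, Vv μ.1

/-- the elements of `Q_δ` in the `Q_μ` of all neighbours -/
def Hv (δ : CosetVertex M₁ M₂) : Subgroup G := Qv δ ⊓ ⨅ μ : {μ // Ad δ μ}, Qv μ.1

theorem Z_le_V {δ μ : CosetVertex M₁ M₂} (h : Ad δ μ) : Zv μ ≤ Vv δ :=
  le_iSup (fun μ : {μ // Ad δ μ} => Zv μ.1) ⟨μ, h⟩

theorem V_le_iff {δ : CosetVertex M₁ M₂} {N : Subgroup G} : Vv δ ≤ N ↔ ∀ μ, Ad δ μ → Zv μ ≤ N :=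
  ⟨fun h _ hμ => (Z_le_V hμ).trans h, fun h => iSup_le fun μ => h μ.1 μ.2⟩

theorem V_le_W {δ μ : CosetVertex M₁ M₂} (h : Ad δ μ) : Vv μ ≤ Wv δ :=
  le_iSup (fun μ : {μ // Ad δ μ} => Vv μ.1) ⟨μ, h⟩

theorem W_le_iff {δ : CosetVertex M₁ M₂} {N : Subgroup G} : Wv δ ≤ N ↔ ∀ μ, Ad δ μ → Vv μ ≤ N :=
  ⟨fun h _ hμ => (V_le_W hμ).trans h, fun h => iSup_le fun μ => h μ.1 μ.2⟩

theorem mem_H {δ : CosetVertex M₁ M₂} {x : G} :
    x ∈ Hv δ ↔ x ∈ Qv δ ∧ ∀ μ, Ad δ μ → x ∈ Qv μ := by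
  rw [Hv, mem_inf, mem_iInf]
  exact and_congr_right fun _ => ⟨fun h μ hμ => h ⟨μ, hμ⟩, fun h μ => h μ.1 μ.2⟩

theorem H_le (δ : CosetVertex M₁ M₂) : Hv δ ≤ Qv δ := inf_le_left

theorem H_le' {δ μ : CosetVertex M₁ M₂} (h : Ad δ μ) : Hv δ ≤ Qv μ := fun _ hx =>
  (mem_H.mp hx).2 μ h

theorem cj_V_le (g : G) (δ : CosetVertex M₁ M₂) : cj g (Vv δ) ≤ Vv (g • δ) := by
  rw [H7.cj_le_iff, V_le_iff]
  intro μ hμ
  rw [← H7.cj_le_iff, ← Zv_smul]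
  exact Z_le_V (cg_adj_smul hμ g)

theorem Vv_smul (g : G) (δ : CosetVertex M₁ M₂) : Vv (g • δ) = cj g (Vv δ) := by
  refine le_antisymm ?_ (cj_V_le g δ)
  have := cj_V_le g⁻¹ (g • δ)
  rwa [inv_smul_smul, H7.cj_le_iff, inv_inv] at this

theorem nV (δ : CosetVertex M₁ M₂) : Gv δ ≤ normalizer (Vv δ : Set G) := fun g hg => by
  rw [H7.mem_normalizer_iff_cj, ← Vv_smul, show g • δ = δ from hg]

theorem nW (δ : CosetVertex M₁ M₂) : Gv δ ≤ normalizer (Wv δ : Set G) := by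
  refine H7.le_normalizer_iff_cj.mpr fun g hg => ?_
  rw [H7.cj_le_iff, W_le_iff]
  intro μ hμ
  rw [← H7.cj_le_iff, ← Vv_smul]
  have := cg_adj_smul hμ g
  rw [show g • δ = δ from hg] at this
  exact V_le_W this

theorem nH (δ : CosetVertex M₁ M₂) : Gv δ ≤ normalizer (Hv δ : Set G) := by
  refine H7.le_normalizer_iff_cj.mpr fun g hg => H7.cj_le_iff'.mpr fun x hx => ?_
  obtain ⟨h1, h2⟩ := mem_H.mp hx
  refine mem_H.mpr ⟨(mem_normalizer_iff.mp (nQ δ hg) x).mp h1, fun μ hμ => ?_⟩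
  have := cg_adj_smul hμ g⁻¹
  rw [show g⁻¹ • δ = δ from inv_mem hg] at this
  have h3 := h2 _ this
  rwa [Qv_smul, mem_cj, inv_inv] at h3

theorem nc_smul_iff (g : G) (δ : CosetVertex M₁ M₂) : NC (g • δ) ↔ NC δ :=
  ⟨fun h => by simpa using h.smul g⁻¹, fun h => h.smul g⟩

namespace S3Am

variable [Finite G] (h : S3Am M₁ M₂) {δ μ ν : CosetVertex M₁ M₂}
include h

theorem idx_two (ha : Ad δ μ) {A : Subgroup G} (hA : A ≤ Ev δ μ) : (Qv δ).relIndex A ∣ 2 :=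
  relIndex_dvd_two_of_le ((h.loc δ).idxQ (h.syl ha)).dvd hA

theorem card_E (ha : Ad δ μ) : Nat.card (Ev δ μ) = 2 * Nat.card (Qv δ) := by
  rw [← H7.relIndex_mul_card_of_le (h.Q_le_E ha), (h.loc δ).idxQ (h.syl ha)]

theorem K_le_of {N A : Subgroup G} (hn : Gv δ ≤ normalizer (N : Set G)) (hA : A ≤ Gv δ)
    (hAN : A ≤ N) (hQ : ¬ A ≤ Qv δ) : Kv δ ≤ N :=
  ((h.loc δ).K_le (N := Gv δ ⊓ N) inf_le_left (H7.le_normalizer_inf le_normalizer hn)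
    fun hle => hQ ((le_inf hA hAN).trans hle)).trans inf_le_right

theorem comm_K_le {U N A : Subgroup G} (hU : Gv δ ≤ normalizer (U : Set G))
    (hn : Gv δ ≤ normalizer (N : Set G)) (hA : A ≤ Gv δ) (hQ : ¬ A ≤ Qv δ) (hc : ⁅U, A⁆ ≤ N) :
    ⁅U, Kv δ⁆ ≤ N :=
  (H7.le_stab_iff.mp (h.K_le_of (H7.le_normalizer_stab hU hn) hA
    (H7.le_stab_iff.mpr ⟨hA.trans hn, hc⟩) hQ)).2

theorem relIndex_H (δ : CosetVertex M₁ M₂) : (Hv δ).relIndex (Qv δ) ≤ 8 := by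
  obtain ⟨μ, h1⟩ := cg_exists_adj δ
  obtain ⟨ν, h2, e1⟩ := h.exists_other h1
  obtain ⟨ρ, h3, e2, e3⟩ := h.exists_third h1 h2 e1.symm
  have key : ∀ μ, Ad δ μ → (Qv μ).relIndex (Qv δ) ≤ 2 := fun μ hμ =>
    relIndex_le_two (h.idx_two hμ.symm (h.Q_le_E' hμ.symm))
  have h4 : Qv μ ⊓ Qv ν ⊓ Qv ρ ⊓ Qv δ ≤ Hv δ := fun x hx => mem_H.mpr ⟨hx.2, fun σ hσ => by
    rcases h.eq_of_three h1 h2 h3 e1 e2 e3.symm hσ with rfl | rfl | rfl
    exacts [hx.1.1.1, hx.1.1.2, hx.1.2]⟩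
  refine (relIndex_le_of_le_left h4 (relIndex_pos _ _).ne').trans ?_
  rw [inf_relIndex_right]
  have h5 := relIndex_inf_le (H := Qv μ ⊓ Qv ν) (K := Qv ρ) (L := Qv δ)
  have h6 := relIndex_inf_le (H := Qv μ) (K := Qv ν) (L := Qv δ)
  have := key μ h1
  have := key ν h2
  have := key ρ h3
  exact h5.trans (Nat.mul_le_mul (h6.trans (Nat.mul_le_mul (key μ h1) (key ν h2))) (key ρ h3))

theorem exists_smul_K (h1 : Ad δ μ) (h2 : Ad δ ν) : ∃ k ∈ Kv δ, k • μ = ν := by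
  obtain ⟨g, hg, rfl⟩ := cg_neighbours_transitive h1 h2
  rw [← Gv, ← h.E_sup_K h1, sup_comm] at hg
  obtain ⟨k, hk, e, he, rfl⟩ :=
    (H7.mem_sup_of_le_normalizer' (inf_le_left.trans (nK δ))).mp hg
  exact ⟨k, hk, by rw [mul_smul, show e • μ = μ from he.2]⟩

/-- the bound when one of the stabilizers is not of characteristic two -/
theorem card_le_of_not_char (ha : Ad δ μ) (hc : ¬ H7.IsCharP 2 (Gv δ)) :
    Nat.card (Ev δ μ) ≤ 16 := by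
  have h1 : Kv δ ≤ centralizer (Qv δ : Set G) :=
    h.K_le_of (H7.le_normalizer_centralizer (nQ δ)) inf_le_left inf_le_right hc
  have h2 : Hv μ = ⊥ := by
    refine h.eq_bot ha ((H_le μ).trans (h.Q_le_E' ha)) ?_ (nH μ)
    rw [← h.E_sup_K ha]
    exact sup_le (inf_le_right.trans (nH μ)) (H7.le_normalizer_of_le_centralizer
      (h1.trans (H7.centralizer_anti (H_le' ha.symm))))
  have h3 := h.relIndex_H μ
  rw [h2, relIndex_bot_left] at h3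
  rw [Ev_comm, h.card_E ha.symm]
  omega

end S3Am

/-- exactly one of two adjacent vertices has `C(Z) = Q` -/
structure S3M (M₁ M₂ : Subgroup G) : Prop where
  c : S3C M₁ M₂
  mix : ∀ δ μ : CosetVertex M₁ M₂, Ad δ μ → (NC δ ↔ ¬ NC μ)

/-- `Q_a ∩ Q_ρ` is normal in `G_ρ` -/
def EN (ρ : CosetVertex M₁ M₂) : Prop := ∀ a a', Ad ρ a → Ad ρ a' → Qv a ⊓ Qv ρ ≤ Qv a'

/-- `|Z_a : Z_ρ| ≤ 2` -/
def Q2 (M₁ M₂ : Subgroup G) : Prop :=
  ∀ a ρ : CosetVertex M₁ M₂, NC a → Ad a ρ → (Zv ρ).relIndex (Zv a) ∣ 2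

/-- `|V_ρ : Z_ρ| ≤ 4` -/
def V4 (M₁ M₂ : Subgroup G) : Prop :=
  ∀ ρ a a' : CosetVertex M₁ M₂, ¬ NC ρ → Ad ρ a → Ad ρ a' → a ≠ a' → Vv ρ ≤ Zv a ⊔ Zv a'

namespace S3M

variable [Finite G] (h : S3M M₁ M₂) {a a' ρ ρ' δ μ : CosetVertex M₁ M₂}
include h

theorem am : S3Am M₁ M₂ := h.c.am

theorem nc_of_adj (hρ : ¬ NC ρ) (ha : Ad ρ a) : NC a := (h.mix _ _ ha.symm).mpr hρ

theorem not_nc_of_adj (hc : NC a) (ha : Ad a ρ) : ¬ NC ρ := (h.mix _ _ ha).mp hc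

theorem exists_smul (e : NC δ ↔ NC μ) : ∃ g : G, g • δ = μ := by
  obtain ⟨ν, ha⟩ := cg_exists_adj δ
  refine h.am.all_of_edge (P := fun μ => (NC δ ↔ NC μ) → ∃ g : G, g • δ = μ) ?_ ha
    (fun _ => ⟨1, one_smul _ _⟩) (fun e' => ?_) _ e
  · intro g μ h1 h2
    obtain ⟨g', rfl⟩ := h1 (h2.trans (nc_smul_iff g μ))
    exact ⟨g * g', mul_smul _ _ _⟩
  · have := h.mix _ _ ha
    tauto

theorem Z_eq (hρ : ¬ NC ρ) (ha : Ad ρ a) : Zv ρ = omegaOneCenter 2 (Ev ρ a) :=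
  le_antisymm (scc_le_of_invariant (h.am.syl ha) le_rfl (H7.le_normalizer_of_le_centralizer
    (not_not.mp fun hn => hρ (h.c.nc_of ha hn)))) (h.am.omega_le_Z ha)

theorem G_le_C (hρ : ¬ NC ρ) : Gv ρ ≤ centralizer (Zv ρ : Set G) := by
  obtain ⟨a, ha⟩ := cg_exists_adj ρ
  rw [h.Z_eq hρ ha]
  exact not_not.mp fun hn => hρ (h.c.nc_of ha hn)

theorem nZ' (hρ : ¬ NC ρ) : Gv ρ ≤ normalizer (Zv ρ : Set G) := nZ ρ

theorem Z_le_Z (hρ : ¬ NC ρ) (ha : Ad ρ a) : Zv ρ ≤ Zv a :=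
  (h.Z_eq hρ ha).le.trans (h.am.omega_le_Z' ha)

theorem mem_Z (hρ : ¬ NC ρ) (ha : Ad ρ a) {x : G} (hx : x ∈ Ev ρ a) (h2 : x * x = 1)
    (hc : Ev ρ a ≤ centralizer {x}) : x ∈ Zv ρ := by
  rw [h.Z_eq hρ ha, H7.mem_omegaOneCenter_iff]
  exact ⟨hx, H7.le_centralizer_singleton_iff.mp hc, by rwa [sq]⟩

theorem mem_Z_of_comm (hρ : ¬ NC ρ) (ha : Ad ρ a) {x y : G} (hx : x ∈ Zv a) (hy : y ∈ Ev ρ a)
    (hyQ : y ∉ Qv a) (hc : y * x = x * y) : x ∈ Zv ρ := by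
  refine h.mem_Z hρ ha (h.c.Z_le_E' ha hx) (sq_eq_one_of_ea (h.c.ea_Z a) hx) ?_
  rw [Ev_comm] at hy ⊢
  rw [← h.am.Q_sup ha.symm (zpowers_le_of_mem hy) fun hle => hyQ (hle (mem_zpowers y))]
  exact sup_le ((h.c.Q_le_C a).trans (H7.centralizer_le_centralizer_singleton hx))
    (zpowers_le_of_mem (mem_centralizer_singleton_iff.mpr hc))

theorem comm_le (hρ : ¬ NC ρ) (ha : Ad ρ a) : ⁅Zv a, Ev ρ a⁆ ≤ Zv ρ := by
  refine commutator_le.mpr fun z hz y hy => ?_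
  by_cases hyQ : y ∈ Qv a
  · rw [commutatorElement_eq_one_iff_mul_comm.mpr (h.c.Q_le_C a hyQ z hz)]
    exact one_mem _
  have h1 : y * z * y⁻¹ ∈ Zv a := (mem_normalizer_iff.mp (nZ a hy.2) z).mp hz
  have h2 := inv_eq_self_of_sq (sq_eq_one_of_ea (h.c.ea_Z a) hz)
  have h3 : y * y ∈ Qv a := (h.am.loc a).mul_mem_Q (h.am.syl' ha) hy hy hyQ hyQ
  have h4 : z * (y * y) = y * y * z := h.c.Q_le_C a h3 z hz
  have h5 : z * (y * z * y⁻¹) = y * z * y⁻¹ * z := h.c.Z_comm a h1 z hz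
  have e : ⁅z, y⁆ = z * (y * z * y⁻¹) := by rw [commutatorElement_def, h2]; group
  refine h.mem_Z_of_comm hρ ha (e ▸ mul_mem hz h1) hy hyQ ?_
  rw [e]
  calc y * (z * (y * z * y⁻¹)) = y * (y * z * y⁻¹ * z) := by rw [h5]
    _ = (y * y * z) * y⁻¹ * z := by group
    _ = z * (y * z) := by rw [← h4]; group
    _ = z * (y * z * y⁻¹) * y := by group

theorem Z_disj (hc : NC a) (h1 : Ad a ρ) (h2 : Ad a ρ') (hne : ρ ≠ ρ') : Zv ρ ⊓ Zv ρ' = ⊥ := by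
  have h3 := (h.G_le_C (h.not_nc_of_adj hc h1)).trans
    (H7.centralizer_anti (inf_le_left : Zv ρ ⊓ Zv ρ' ≤ _))
  have h4 := (h.G_le_C (h.not_nc_of_adj hc h2)).trans
    (H7.centralizer_anti (inf_le_right : Zv ρ ⊓ Zv ρ' ≤ _))
  exact h.am.eq_bot h1 (inf_le_left.trans (h.c.Z_le_E' h1)) (H7.le_normalizer_of_le_centralizer
    (h.am.le_of_two h1 h2 hne (inf_le_right.trans h3) (inf_le_right.trans h4)))
    (H7.le_normalizer_of_le_centralizer h3)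

theorem CK (hc : NC a) : Qv a ⊓ centralizer (Kv a : Set G) = ⊥ := by
  by_contra hne
  obtain ⟨ρ, ha⟩ := cg_exists_adj a
  have hρ := h.not_nc_of_adj hc ha
  obtain ⟨z, hz, hz1, hz2, hz3⟩ := H7.exists_central_elem ((pQ a).to_le inf_le_left) (h.am.pE ha)
    (inf_le_left.trans (H7.le_normalizer_inf (nQ a) (H7.le_normalizer_centralizer (nK a)))) hne
  have h1 : z ∈ Zv ρ := h.mem_Z hρ ha.symm (h.am.Q_le_E' ha.symm hz.1) (by rwa [← sq])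
    (Ev_comm a ρ ▸ H7.le_centralizer_singleton_iff.mpr hz2)
  refine hz1 (zpowers_eq_bot.mp (h.am.eq_bot ha (zpowers_le_of_mem (h.am.Q_le_E ha hz.1))
    (H7.le_normalizer_of_le_centralizer ?_) (H7.le_normalizer_of_le_centralizer
      ((h.G_le_C hρ).trans (H7.centralizer_anti (zpowers_le_of_mem h1))))))
  rw [← h.am.E_sup_K ha, H7.centralizer_zpowers]
  exact sup_le (H7.le_centralizer_singleton_iff.mpr hz2) (H7.le_centralizer_singleton_iff.mpr hz.2)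

theorem card_Z_le (hc : NC a) (h1 : Ad a ρ) : Nat.card (Zv ρ) ≤ (Zv ρ).relIndex (Zv a) := by
  obtain ⟨ρ', h2, e⟩ := h.am.exists_other h1
  obtain ⟨g, -, rfl⟩ := cg_neighbours_transitive h1 h2
  have h3 := H7.relIndex_mul_card_inf (Zv ρ) (Zv (g • ρ))
  rw [h.Z_disj hc h1 h2 e.symm, card_bot, mul_one] at h3
  have h4 := relIndex_le_of_le_right (H := Zv ρ) (h.Z_le_Z (h.not_nc_of_adj hc h2) h2.symm)
    (relIndex_pos _ _).ne'
  rwa [h3, Zv_smul, H7.card_cj] at h4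

theorem relIndex_le_comm (hc : NC a) (h1 : Ad a ρ) {y : G} (hy : y ∈ Ev ρ a) (hyQ : y ∉ Qv a) :
    (Zv ρ).relIndex (Zv a) ≤ Nat.card ↥⁅Zv a, zpowers y⁆ := by
  rw [← relIndex_bot_left]
  refine relIndex_le_of_map (fun z => ⁅z, y⁆)
    (fun z hz => commutator_mem_commutator hz (mem_zpowers y)) fun z hz z' hz' hm => ?_
  refine h.mem_Z_of_comm (h.not_nc_of_adj hc h1) h1.symm (mul_mem (inv_mem hz) hz') hy hyQ ?_
  rw [mem_bot, inv_mul_eq_one, commutatorElement_def, commutatorElement_def, mul_left_inj] at hm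
  calc y * (z⁻¹ * z') = z⁻¹ * (z * y * z⁻¹) * z' := by group
    _ = z⁻¹ * z' * y := by rw [hm]; group

theorem Z_le_comm (hc : NC a) (h1 : Ad a ρ) {y : G} (hy : y ∈ Ev ρ a) (hyQ : y ∉ Qv a) :
    Zv ρ ≤ ⁅Zv a, zpowers y⁆ :=
  (eq_of_le_of_card_ge ((commutator_mono le_rfl (zpowers_le_of_mem hy)).trans
    (h.comm_le (h.not_nc_of_adj hc h1) h1.symm))
    ((h.card_Z_le hc h1).trans (h.relIndex_le_comm hc h1 hy hyQ))).ge

theorem Z_le_sup (hc : NC a) (h1 : Ad a ρ) (h2 : Ad a ρ') (hne : ρ ≠ ρ') :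
    Zv a ≤ Zv ρ ⊔ Zv ρ' := by
  have hρ := h.not_nc_of_adj hc h1
  have hρ' := h.not_nc_of_adj hc h2
  refine (eq_of_le_of_card_ge (sup_le (h.Z_le_Z hρ h1.symm) (h.Z_le_Z hρ' h2.symm)) ?_).ge
  obtain ⟨y, hy, hyQ⟩ := SetLike.not_le_iff_exists.mp ((h.am.loc a).not_le_Q (h.am.syl' h1.symm))
  have h3 := (h.relIndex_le_comm hc h1 hy hyQ).trans (card_le_of_le
    ((commutator_mono le_rfl (zpowers_le_of_mem hy)).trans (h.comm_le hρ h1.symm)))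
  have h4 := H7.card_sup_mul_card_inf (H := Zv ρ) (N := Zv ρ') (H7.le_normalizer_of_le_centralizer
    ((h.Z_le_Z hρ h1.symm).trans ((h.c.Z_comm a).trans
      (H7.centralizer_anti (h.Z_le_Z hρ' h2.symm)))))
  rw [h.Z_disj hc h1 h2 hne, card_bot, mul_one] at h4
  obtain ⟨g, -, rfl⟩ := cg_neighbours_transitive h1 h2
  rw [h4, Zv_smul, H7.card_cj, ← H7.relIndex_mul_card_of_le (h.Z_le_Z hρ h1.symm)]
  exact Nat.mul_le_mul_right _ h3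

theorem comm_V (hρ : ¬ NC ρ) : ⁅Vv ρ, Qv ρ⁆ ≤ Zv ρ :=
  H7.iSup_commutator_le (fun μ => H7.le_normalizer_of_le_centralizer
    ((h.c.Z_comm μ.1).trans (H7.centralizer_anti (h.Z_le_Z hρ μ.2))))
    fun μ => (commutator_mono le_rfl (h.am.Q_le_E μ.2)).trans (h.comm_le hρ μ.2)

theorem not_K_le (hρ : ¬ NC ρ) : ¬ Kv ρ ≤ centralizer (Vv ρ : Set G) := fun hle => by
  obtain ⟨a, ha⟩ := cg_exists_adj ρ
  refine h.am.Z_ne_bot a (h.am.eq_bot ha (h.c.Z_le_E' ha) ?_ (nZ a))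
  rw [← h.am.E_sup_K ha]
  exact sup_le (inf_le_right.trans (nZ a)) (H7.le_normalizer_of_le_centralizer
    (hle.trans (H7.centralizer_anti (Z_le_V ha))))

theorem le_Q_of_comm (hρ : ¬ NC ρ) {A : Subgroup G} (hA : A ≤ Gv ρ) (hc : ⁅Vv ρ, A⁆ ≤ Zv ρ) :
    A ≤ Qv ρ := by
  by_contra hn
  have h1 := h.am.comm_K_le (nV ρ) (nZ ρ) hA hn hc
  have := H7.pResidualOf_le_centralizer h1
    (H7.commutator_eq_bot_iff'.mpr ((Kv_le ρ).trans (h.G_le_C hρ))) (H7.ea_isPGroup (h.c.ea_Z ρ))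
  rw [H7.pResidualOf_pResidualOf] at this
  exact h.not_K_le hρ this

theorem le_Q_of_C (hρ : ¬ NC ρ) {A : Subgroup G} (hA : A ≤ Gv ρ)
    (hc : A ≤ centralizer (Vv ρ : Set G)) : A ≤ Qv ρ :=
  h.le_Q_of_comm hρ hA (H7.commutator_le_of_le_centralizer hc)

theorem H_le_C (ρ : CosetVertex M₁ M₂) : Hv ρ ≤ centralizer (Vv ρ : Set G) :=
  le_centralizer_iff.mp (V_le_iff.mpr fun μ hμ =>
    (h.c.Z_le_C μ).trans (H7.centralizer_anti (H_le' hμ)))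

theorem inf_le_CK (h1 : Ad ρ a) (h2 : Ad ρ a') (hne : a ≠ a') :
    Zv a ⊓ Zv a' ≤ centralizer (Kv ρ : Set G) := by
  have h3 : Qv ρ ⊔ (Qv a ⊔ Qv a') = Gv ρ := by
    rw [sup_sup_distrib_left, h.c.Q_sup_Q h1.symm, h.c.Q_sup_Q h2.symm, h.am.E_sup h1 h2 hne]
  have h4 : Kv ρ ≤ Qv a ⊔ Qv a' := by
    refine h.am.K_le_of (A := Qv a) ?_ (h.am.Q_le_G h1.symm) le_sup_left (h.c.Q_not_le h1.symm)
    rw [← h3]
    exact sup_le (H7.le_normalizer_sup ((h.am.Q_le_G h1).trans (nQ a))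
      ((h.am.Q_le_G h2).trans (nQ a'))) le_normalizer
  refine le_trans ?_ (H7.centralizer_anti h4)
  rw [H7.centralizer_sup]
  exact inf_le_inf (h.c.Z_le_C a) (h.c.Z_le_C a')

theorem en_of_comm (h1 : Ad ρ a) (hc : ⁅Qv ρ, Kv ρ⁆ ≤ Qv a) : EN ρ := by
  have h2 : Gv ρ ≤ normalizer ((Qv a ⊓ Qv ρ : Subgroup G) : Set G) := by
    rw [← h.am.E_sup_K h1]
    refine sup_le (H7.le_normalizer_inf (inf_le_right.trans (nQ a)) (inf_le_left.trans (nQ ρ)))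
      (H7.le_normalizer_of_commutator_le inf_le_right (le_inf hc ?_))
    exact H7.commutator_le_left_of_le_normalizer ((Kv_le ρ).trans (nQ ρ))
  have h3 : ∀ a', Ad ρ a' → Qv a' ⊓ Qv ρ = Qv a ⊓ Qv ρ := fun a' ha' => by
    obtain ⟨g, hg, rfl⟩ := cg_neighbours_transitive h1 ha'
    rw [← H7.cj_eq_of_mem_normalizer (h2 hg), H7.cj_inf, ← Qv_smul, ← Qv_smul,
      show g • ρ = ρ from hg]
  intro a₁ a₂ h4 h5
  rw [h3 a₁ h4, ← h3 a₂ h5]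
  exact inf_le_left

theorem en_of_one (h1 : Ad ρ a) (h2 : Ad ρ a') (hne : a ≠ a') (hle : Qv a ⊓ Qv ρ ≤ Qv a') :
    EN ρ := by
  intro a₁ a₂ h3 h4
  by_cases e : a₁ = a₂
  · exact e ▸ inf_le_left
  obtain ⟨t, ht, rfl, rfl⟩ := h.am.two_trans' h1 h2 h3 h4 hne e
  have := H7.cj_mono (g := t) hle
  rwa [H7.cj_inf, ← Qv_smul, ← Qv_smul, ← Qv_smul, show t • ρ = ρ from ht] at this

theorem en_of_en (hρ : ¬ NC ρ) (hρ' : ¬ NC ρ') (hE : EN ρ) : EN ρ' := by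
  obtain ⟨g, rfl⟩ := h.exists_smul (δ := ρ) (μ := ρ') (by tauto)
  obtain ⟨a, h1⟩ := cg_exists_adj ρ
  obtain ⟨a', h2, e⟩ := h.am.exists_other h1
  refine h.en_of_one (cg_adj_smul h1 g) (cg_adj_smul h2 g)
    (fun e' => e (smul_left_cancel g e').symm) ?_
  rw [Qv_smul, Qv_smul, Qv_smul, ← H7.cj_inf]
  exact H7.cj_mono (hE a a' h1 h2)

theorem C_le_of_not_en (hE : ¬ EN ρ) (h1 : Ad ρ a) {X : Subgroup G}
    (hK : X ≤ centralizer (Kv ρ : Set G)) (hQ : X ≤ centralizer (Qv a : Set G)) :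
    X ≤ centralizer (Ev ρ a : Set G) := by
  have h2 : ⁅Qv ρ, Kv ρ⁆ ≤ Qv ρ := H7.commutator_le_left_of_le_normalizer ((Kv_le ρ).trans (nQ ρ))
  rw [Ev_comm, ← h.am.Q_sup h1.symm (h2.trans (h.am.Q_le_E' h1.symm))
    fun hle => hE (h.en_of_comm h1 hle), H7.centralizer_sup]
  exact le_inf hQ (hK.trans (H7.centralizer_anti
    (H7.commutator_le_right_of_le_normalizer ((Qv_le ρ).trans (nK ρ)))))

theorem Z_inf_le (hρ : ¬ NC ρ) (hE : ¬ EN ρ) (h1 : Ad ρ a) (h2 : Ad ρ a') (hne : a ≠ a') :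
    Zv a ⊓ Zv a' ≤ Zv ρ := fun _ hx =>
  h.mem_Z hρ h1 (h.c.Z_le_E' h1 hx.1) (sq_eq_one_of_ea (h.c.ea_Z a) hx.1)
    (H7.le_centralizer_singleton_iff.mpr (h.C_le_of_not_en hE h1 (h.inf_le_CK h1 h2 hne)
      (inf_le_left.trans (h.c.Z_le_C a)) hx))

/-- an element of `Z_a` centralized by an element moving `a` lies in `Z_ρ` -/
theorem mem_Z_of_swap (hρ : ¬ NC ρ) (hE : ¬ EN ρ) (h1 : Ad ρ a) (h2 : Ad ρ a') (hne : a ≠ a')
    {x s : G} (hx : x ∈ Zv a) (hs : s ∈ Ev ρ a') (hsQ : s ∉ Qv ρ) (hc : s * x = x * s) :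
    x ∈ Zv ρ := by
  refine h.Z_inf_le hρ hE h1 (h.am.adj_smul h1 hs.1) (h.am.smul_ne h2 h1 hne hs hsQ).symm ⟨hx, ?_⟩
  rw [Zv_smul]
  have := H7.conj_mem_cj (g := s) hx
  rwa [hc, mul_inv_cancel_right] at this

theorem q2_of_one (hc : NC a) (h1 : Ad a ρ) (hi : (Zv ρ).relIndex (Zv a) ∣ 2) : Q2 M₁ M₂ := by
  intro a' ρ' hc' h2
  obtain ⟨g, rfl⟩ := h.exists_smul (δ := a) (μ := a') (by tauto)
  obtain ⟨k, hk, rfl⟩ := cg_neighbours_transitive (cg_adj_smul h1 g) h2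
  rw [← show k • g • a = g • a from hk, Zv_smul, Zv_smul, Zv_smul, Zv_smul, relIndex_cj,
    relIndex_cj]
  exact hi

theorem v4_of_one (hρ : ¬ NC ρ) (h1 : Ad ρ a) (h2 : Ad ρ a') (hne : a ≠ a')
    (hle : Vv ρ ≤ Zv a ⊔ Zv a') : V4 M₁ M₂ := by
  intro σ c c' hσ h3 h4 e
  obtain ⟨g, rfl⟩ := h.exists_smul (δ := ρ) (μ := σ) (by tauto)
  obtain ⟨k, hk, rfl, rfl⟩ := h.am.two_trans' (cg_adj_smul h1 g) (cg_adj_smul h2 g) h3 h4
    (fun e' => hne (smul_left_cancel g e')) e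
  rw [← show k • g • ρ = g • ρ from hk, Vv_smul, Vv_smul, Zv_smul, Zv_smul, Zv_smul, Zv_smul,
    ← H7.cj_sup, ← H7.cj_sup]
  exact H7.cj_mono (H7.cj_mono hle)

theorem card_Zρ (hq : Q2 M₁ M₂) (hρ : ¬ NC ρ) : Nat.card (Zv ρ) = 2 := by
  obtain ⟨a, ha⟩ := cg_exists_adj ρ
  have hc := h.nc_of_adj hρ ha
  have h1 := (h.card_Z_le hc ha.symm).trans (relIndex_le_two (hq a ρ hc ha.symm))
  have h2 := (Zv ρ).one_lt_card_iff_ne_bot.mpr (h.am.Z_ne_bot ρ)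
  omega

theorem card_Za (hq : Q2 M₁ M₂) (hc : NC a) : Nat.card (Zv a) = 4 := by
  obtain ⟨ρ, ha⟩ := cg_exists_adj a
  have hρ := h.not_nc_of_adj hc ha
  have h1 := h.card_Z_le hc ha
  have h2 := relIndex_le_two (hq a ρ hc ha)
  have h3 := H7.relIndex_mul_card_of_le (h.Z_le_Z hρ ha.symm)
  rw [h.card_Zρ hq hρ] at h1 h3
  rw [← h3, le_antisymm h2 h1]

theorem Z_le_of_mem (hq : Q2 M₁ M₂) (hρ : ¬ NC ρ) {x : G} (hx : x ∈ Zv ρ) (h1 : x ≠ 1)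
    {N : Subgroup G} (hN : x ∈ N) : Zv ρ ≤ N := by
  rw [eq_zpowers_of_card_prime (by rw [h.card_Zρ hq hρ]; exact Nat.prime_two) hx h1]
  exact zpowers_le_of_mem hN

theorem mul_mem_Z (hq : Q2 M₁ M₂) (hρ : ¬ NC ρ) (h1 : Ad ρ a) {x y : G} (hx : x ∈ Zv a)
    (hy : y ∈ Zv a) (hx' : x ∉ Zv ρ) (hy' : y ∉ Zv ρ) : x * y ∈ Zv ρ :=
  mul_mem_of_relIndex_two (hq a ρ (h.nc_of_adj hρ h1) h1.symm) hx hy hx' hy'

theorem Z_le_sup_zpowers (hq : Q2 M₁ M₂) (hρ : ¬ NC ρ) (h1 : Ad ρ a) {x : G} (hx : x ∈ Zv a)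
    (hx' : x ∉ Zv ρ) : Zv a ≤ Zv ρ ⊔ zpowers x :=
  (le_sup_of_relIndex_two (hq a ρ (h.nc_of_adj hρ h1) h1.symm) (zpowers_le_of_mem hx)
    fun hle => hx' (hle (mem_zpowers x))).trans (sup_le_sup_right inf_le_right _)

theorem mem_Z_of_comm2 (hc : NC a) (h1 : Ad a ρ) (h2 : Ad a ρ') (hne : ρ ≠ ρ') {u : G}
    (hu : u ∈ Qv a) (hu2 : u * u = 1) (c1 : ∀ x ∈ Ev a ρ, ⁅u, x⁆ ∈ Zv ρ)
    (c2 : ∀ x ∈ Ev a ρ', ⁅u, x⁆ ∈ Zv ρ') : u ∈ Zv a := by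
  have hρ := h.not_nc_of_adj hc h1
  have hρ' := h.not_nc_of_adj hc h2
  have h3 : Qv a ≤ centralizer {u} := fun x hx => by
    have : ⁅u, x⁆ ∈ (⊥ : Subgroup G) :=
      h.Z_disj hc h1 h2 hne ▸ ⟨c1 x (h.am.Q_le_E h1 hx), c2 x (h.am.Q_le_E h2 hx)⟩
    exact mem_centralizer_singleton_iff.mpr
      (commutatorElement_eq_one_iff_mul_comm.mp (mem_bot.mp this)).symm
  have h4 : ⁅zpowers u, Gv a⁆ ≤ Zv a := by
    have key : ∀ {ρ : CosetVertex M₁ M₂}, Ad a ρ → (∀ x ∈ Ev a ρ, ⁅u, x⁆ ∈ Zv ρ) →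
        Ev a ρ ≤ stab (zpowers u) (Zv a) := fun h1 c1 x hx => H7.le_stab_iff.mpr
      ⟨zpowers_le_of_mem (nZ a hx.1), commutator_zpowers_le (nZ a (Qv_le a hu)) (nZ a hx.1)
        (h.Z_le_Z (h.not_nc_of_adj hc h1) h1.symm (c1 x hx))⟩ (mem_zpowers x)
    exact (H7.le_stab_iff.mp (h.am.le_of_two h1 h2 hne (key h1 c1) (key h2 c2))).2
  have h5 : ⁅Zv a ⊔ zpowers u, Gv a⁆ ≤ Zv a := H7.sup_commutator_le le_normalizer
    (zpowers_le_of_mem (nZ a (Qv_le a hu))) (H7.commutator_le_left_of_le_normalizer (nZ a)) h4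
  have hUQ : Zv a ⊔ zpowers u ≤ Qv a := sup_le (h.c.Z_le_Q a) (zpowers_le_of_mem hu)
  have hQU : Qv a ≤ centralizer ((Zv a ⊔ zpowers u : Subgroup G) : Set G) := by
    rw [H7.centralizer_sup, H7.centralizer_zpowers]
    exact le_inf (h.c.Q_le_C a) h3
  obtain ⟨h6, -, -⟩ := (h.am.k3 a).act (hUQ.trans hQU) ((pQ a).to_le hUQ)
    (H7.le_normalizer_of_commutator_le le_rfl
      ((commutator_mono le_rfl (Kv_le a)).trans (h5.trans le_sup_left)))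
    ((S3L.pCoreOf_K.le.trans inf_le_left).trans hQU)
  have h7 := h6.ge (mem_sup_right (mem_zpowers u))
  exact sup_le ((commutator_mono le_rfl (Kv_le a)).trans h5)
    (((inf_le_inf_right _ hUQ).trans (h.CK hc).le).trans bot_le) h7

end S3M

end Cfsg.H9
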