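import Cfsg.Agent.H9.S3Even

/-!
Amalgams of type `(S₃, S₃)` with one central `Ω₁(Z(T))`: odd critical distance at least three.
-/

set_option autoImplicit false
set_option linter.style.haveILetI false
set_option linter.unusedSectionVars false

namespace Cfsg.H9

open Subgroup MulAction
open Cfsg.H7 (cj mem_cj stab)
open scoped commutatorElement

universe u

variable {G : Type u} [Group G] {M₁ M₂ : Subgroup G}

/-- all arcs of length `b` starting at a vertex with `C(Z) = Q` are critical -/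
def AC (M₁ M₂ : Subgroup G) (b : ℕ) : Prop :=
  ∀ f : ℤ → CosetVertex M₁ M₂, Line f → NC (f 0) → ¬ Zv (f 0) ≤ Qv (f b)

/-- odd critical distance at least three -/
structure S3O (M₁ M₂ : Subgroup G) (b : ℕ) : Prop where
  h : S3M M₁ M₂
  m : Mn M₁ M₂ b
  hb : 3 ≤ b
  ne : ∀ ρ : CosetVertex M₁ M₂, ¬ NC ρ → ¬ EN ρ
  odd : ∀ f : ℤ → CosetVertex M₁ M₂, Line f → NC (f 0) → ¬ NC (f b)
  ex : ∃ f : ℤ → CosetVertex M₁ M₂, Line f ∧ ¬ Zv (f 0) ≤ Qv (f b)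

theorem S3M.nc_par [Finite G] (h : S3M M₁ M₂) {f g : ℤ → CosetVertex M₁ M₂} (hf : Line f)
    (hg : Line g) (e : NC (f 0) ↔ NC (g 0)) (n : ℕ) : NC (f n) ↔ NC (g n) := by
  induction n with
  | zero => exact e
  | succ n ih =>
    have h1 := h.mix _ _ (hf.ad n (n + 1 : ℕ) (by push_cast; omega))
    have h2 := h.mix _ _ (hg.ad n (n + 1 : ℕ) (by push_cast; omega))
    tauto

theorem S3M.u_loc [Finite G] (h : S3M M₁ M₂) (hq : Q2 M₁ M₂) {ρ a a₂ : CosetVertex M₁ M₂}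
    (hρ : ¬ NC ρ) (hE : ¬ EN ρ) (hV : Vv ρ ≤ centralizer (Vv ρ : Set G)) (h1 : Ad ρ a)
    (h2 : Ad ρ a₂) (hne : a ≠ a₂) {t s : G} (ht : t ∈ Zv a) (ht' : t ∉ Zv ρ) (hs : s ∈ Ev ρ a₂)
    (hsQ : s ∉ Qv ρ) : ⁅t, s⁆ ∉ Zv ρ ∧ (∀ x ∈ Ev ρ a₂, ⁅⁅t, s⁆, x⁆ ∈ Zv ρ) ∧
      (⁅t, s⁆ ∈ Zv a₂ → Vv ρ ≤ Zv a ⊔ Zv a₂) := by
  have h3 := h.am.adj_smul h1 hs.1
  have e1 := h.am.smul_ne h2 h1 hne hs hsQ
  have e2 := h.am.smul_ne' hne hs.2
  have conjZ : ∀ {c : CosetVertex M₁ M₂} {y x : G}, y ∈ Zv c → x * y * x⁻¹ ∈ Zv (x • c) :=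
    fun hy => by rw [Zv_smul]; exact H7.conj_mem_cj hy
  have conjZ' : ∀ {y x : G}, x ∈ Gv ρ → y ∉ Zv ρ → x * y * x⁻¹ ∉ Zv ρ := fun hx hy hm =>
    hy ((mem_normalizer_iff.mp (nZ ρ hx) _).mpr hm)
  have ht2 := inv_eq_self_of_sq (sq_eq_one_of_ea (h.c.ea_Z a) ht)
  have ht1 : s * t * s⁻¹ ∈ Zv (s • a) := conjZ ht
  have ht1' := conjZ' hs.1 ht'
  have eu : ⁅t, s⁆ = t * (s * t * s⁻¹) := by rw [commutatorElement_def, ht2]; group
  set t₁ := s * t * s⁻¹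
  have ht12 := inv_eq_self_of_sq (sq_eq_one_of_ea (h.c.ea_Z _) ht1)
  rw [eu]
  refine ⟨fun hm => ht1' (h.Z_inf_le hρ hE h1 h3 e1.symm
    ⟨(mul_mem_cancel_left ht).mp (h.Z_le_Z hρ h1 hm), ht1⟩), fun x hx => ?_, fun hm => ?_⟩
  · have e3 : ⁅t * t₁, x⁆ = t * t₁ * (x * t₁ * x⁻¹) * (x * t * x⁻¹) := by
      rw [commutatorElement_def, mul_inv_rev, ht2, ht12]; group
    have hy := conjZ (x := x) ht
    have hy1 := conjZ (x := x) ht1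
    rw [e3]
    by_cases hxQ : x ∈ Qv ρ
    · rw [show x • a = a from h.am.Q_le_G h1 hxQ] at hy
      rw [show x • s • a = s • a from h.am.Q_le_G h3 hxQ] at hy1
      have k1 := h.mul_mem_Z hq hρ h1 ht hy ht' (conjZ' hx.1 ht')
      have k2 := h.mul_mem_Z hq hρ h3 ht1 hy1 ht1' (conjZ' hx.1 ht1')
      rw [mul_assoc t, mul_assoc t, hV (Z_le_V h1 hy) _ (Z_le_V h1 (h.Z_le_Z hρ h1 k2)), ← mul_assoc]
      exact mul_mem k1 k2
    · rw [h.am.swap h2 h1 h3 hne e2 e1.symm hx hxQ] at hy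
      rw [h.am.swap h2 h3 h1 e2 hne e1 hx hxQ] at hy1
      have k1 := h.mul_mem_Z hq hρ h1 ht hy1 ht' (conjZ' hx.1 ht1')
      have k2 := h.mul_mem_Z hq hρ h3 ht1 hy ht1' (conjZ' hx.1 ht')
      have k3 : t₁ * (x * t₁ * x⁻¹) = (x * t₁ * x⁻¹) * t₁ := hV (Z_le_V h1 hy1) _ (Z_le_V h3 ht1)
      rw [show t * t₁ * (x * t₁ * x⁻¹) * (x * t * x⁻¹) = t * (t₁ * (x * t₁ * x⁻¹)) * (x * t * x⁻¹) by
        simp only [mul_assoc], k3, show t * (x * t₁ * x⁻¹ * t₁) * (x * t * x⁻¹) =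
        t * (x * t₁ * x⁻¹) * (t₁ * (x * t * x⁻¹)) by simp only [mul_assoc]]
      exact mul_mem k1 k2
  · refine V_le_iff.mpr fun c hc => ?_
    rcases h.am.eq_of_three h2 h1 h3 hne e2 e1.symm hc with rfl | rfl | rfl
    · exact le_sup_right
    · exact le_sup_left
    · refine (h.Z_le_sup_zpowers hq hρ h3 ht1 ht1').trans
        (sup_le ((h.Z_le_Z hρ h1).trans le_sup_left) (zpowers_le_of_mem ?_))
      exact (mul_mem_cancel_left (mem_sup_left ht)).mp (mem_sup_right hm)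

theorem S3M.idxV [Finite G] (h : S3M M₁ M₂) (hq : Q2 M₁ M₂) (h4 : V4 M₁ M₂)
    {ρ a : CosetVertex M₁ M₂} (hρ : ¬ NC ρ) (hV : Vv ρ ≤ Qv ρ) (h1 : Ad ρ a) :
    (Zv a).relIndex (Vv ρ) ∣ 2 := by
  obtain ⟨a', h2, e⟩ := h.am.exists_other h1
  refine relIndex_dvd_two_of_le ?_ (h4 ρ a' a hρ h2 h1 e)
  rw [H7.relIndex_sup_of_le_normalizer (((Z_le_V h2).trans hV).trans
    ((h.am.Q_le_G h1).trans (nZ a)))]
  exact (relIndex_dvd_of_le_left _ (h.Z_le_Z hρ h1)).trans (hq a' ρ (h.nc_of_adj hρ h2) h2.symm)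

namespace S3O

variable [Finite G] {b : ℕ} (o : S3O M₁ M₂ b) {a a' ρ ρ' δ μ : CosetVertex M₁ M₂}
  {f g : ℤ → CosetVertex M₁ M₂}
include o

theorem am : S3Am M₁ M₂ := o.h.am

theorem n0 (hf : Line f) (hc : ¬ Zv (f 0) ≤ Qv (f b)) : NC (f 0) :=
  o.h.nc_zero o.m (by have := o.hb; omega) hf hc

theorem witB : Wit (fun δ : CosetVertex M₁ M₂ => ¬ NC δ) b := by
  obtain ⟨f, hf, hc⟩ := o.ex
  obtain ⟨t, ht, htQ⟩ := SetLike.not_le_iff_exists.mp hc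
  exact ⟨_, hf.rev b, by simpa using o.odd f hf (o.n0 hf hc), t, by simpa using htQ,
    fun k h1 h2 => o.h.le_G o.m (hf.le 0 (b - k) b) le_rfl ht⟩

theorem ac_of_wit (w : Wit (NC (M₁ := M₁) (M₂ := M₂)) (b - 1)) : AC M₁ M₂ b := by
  intro g hg ng hle
  have hb := o.hb
  obtain ⟨f, hf, hc⟩ := o.ex
  obtain ⟨x, hx⟩ := o.am.arc_trans (fun g δ hδ => hδ.smul g) o.h.mix w (o.witB.mono (by omega)) b
    (by omega) f g hf hg (iff_of_true (o.n0 hf hc) ng)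
  rw [← hx 0 le_rfl (by omega), ← hx b (by omega) le_rfl, Zv_smul, Qv_smul, H7.cj_le_cj_iff] at hle
  exact hc hle

theorem mem_Q_of_fix (hA : ¬ AC M₁ M₂ b) (hg : Line g) (ng : NC (g 0)) {x : G}
    (hx : ∀ k : ℤ, 0 ≤ k → k ≤ b - 1 → x ∈ Gv (g k)) : x ∈ Qv (g 0) := by
  by_contra hn
  have hb := o.hb
  exact hA (o.ac_of_wit ⟨g, hg, ng, x, hn, fun k h1 h2 => hx k h1 (by omega)⟩)

theorem critB (hf : Line f) (hc : ¬ Zv (f 0) ≤ Qv (f b)) : ¬ Zv (f (b + 1)) ≤ Qv (f 1) := by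
  have hb := o.hb
  have n0 := o.n0 hf hc
  have nb := o.odd f hf n0
  have h1 : ¬ Vv (f b) ≤ Qv (f 1) := fun hle => by
    have h2 : ¬ Vv (f b) ≤ Qv (f 0) := fun hle' => hc (o.h.le_Q_of_C nb
      (o.h.le_G o.m (hf.le 0 b b)) (le_centralizer_iff.mp (hle'.trans (o.h.c.Q_le_C _))))
    obtain ⟨w, hw, hwQ⟩ := SetLike.not_le_iff_exists.mp h2
    have hA : AC M₁ M₂ b := by
      by_contra hA
      refine hwQ (o.mem_Q_of_fix hA hf n0 fun k h3 h4 => ?_)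
      by_cases h5 : k = 0
      · exact h5 ▸ o.am.Q_le_G (hf.ad 1 0) (hle hw)
      · exact o.h.V_le_G o.m (hf.le b k (b - 1)) (by omega) hw
    refine hA _ (hf.rev (b + 1)) (by simpa using o.h.nc_succ' hf b (b + 1) nb) ?_
    simpa using (Z_le_V (hf.ad b (b + 1))).trans hle
  intro hle
  refine h1 (V_le_iff.mpr fun c h2 => ?_)
  by_cases e1 : c = f (b - 1)
  · exact e1 ▸ o.m.le_Q (hf.le (b - 1) 1 (b - 2))
  by_cases e2 : f (b + 1) = c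
  · exact e2 ▸ hle
  obtain ⟨t, ht, htQ⟩ := SetLike.not_le_iff_exists.mp hc
  rw [← o.am.swap (hf.ad b (b - 1)) (hf.ad b (b + 1)) h2 (hf.ne' _ _) e1 e2
    (o.am.Q_le_E' (hf.ad _ _) (o.m.le_Q (hf.le 0 (b - 1) (b - 1)) (by omega) ht)) htQ, Zv_smul]
  exact H7.cj_le_of_le (nQ _ (o.h.le_G o.m (hf.le 0 1 1) (by omega) ht)) hle

theorem q2 : Q2 M₁ M₂ := by
  by_contra hq
  have hb := o.hb
  obtain ⟨f, hf, hc⟩ := o.ex
  have n0 := o.n0 hf hc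
  have n1 := o.h.nc_succ hf 0 1 n0
  have nb := o.odd f hf n0
  obtain ⟨t, ht, htQ⟩ := SetLike.not_le_iff_exists.mp hc
  obtain ⟨x, hx, hx1, hxb⟩ : ∃ x ∈ Zv (f (b + 1)), x ∈ Qv (f 1) ∧ x ∉ Zv (f b) := by
    by_contra hcon
    push Not at hcon
    refine hq (o.h.q2_of_one (o.h.nc_succ' hf b (b + 1) nb) (hf.ad (b + 1) b)
      (relIndex_dvd_two_of_forall fun x hx y hy hx' hy' => hcon _ (mul_mem hx hy) ?_))
    exact mul_mem_of_relIndex_two (o.am.idx_two (hf.ad 1 2) ((o.m.le_Q (hf.le (b + 1) 2 (b - 1))).trans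
      (o.am.Q_le_E' (hf.ad 1 2)))) hx hy (fun hm => hx' (hcon x hx hm)) fun hm => hy' (hcon y hy hm)
  have hx0 : x ∉ Qv (f 0) := fun hm => hxb (o.h.mem_Z_of_swap nb (o.ne _ nb) (hf.ad b (b + 1))
    (hf.ad b (b - 1)) (hf.ne' _ _) hx
    (o.am.Q_le_E' (hf.ad _ _) (o.m.le_Q (hf.le 0 (b - 1) (b - 1)) (by omega) ht)) htQ
    (o.h.c.Q_le_C _ hm t ht))
  have hxE : x ∈ Ev (f 1) (f 0) := o.am.Q_le_E (hf.ad 1 0) hx1
  by_cases hb3 : b = 3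
  · subst hb3
    refine hq (o.h.q2_of_one n0 (hf.ad 0 1) (relIndex_dvd_two_of_forall fun y hy z hz hy' hz' => ?_))
    have key : ∀ z ∈ Zv (f 0), z ∈ Qv (f (3 : ℕ)) → z ∈ Zv (f 1) := fun z hz hzQ => by
      refine o.h.mem_Z_of_comm n1 (hf.ad 1 0) hz hxE hx0
        (commutatorElement_eq_one_iff_mul_comm.mp (mem_bot.mp ?_))
      rw [← o.h.Z_disj (o.h.nc_succ' hf 1 2 n1) (hf.ad 2 1) (hf.ad 2 (3 : ℕ)) (hf.ne' _ _)]
      exact ⟨o.h.comm_le n1 (hf.ad 1 0) (H7.commutator_mem_commutator' hz hxE),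
        o.h.comm_le nb (hf.ad _ _) (commutator_mem_commutator hx (o.am.Q_le_E (hf.ad _ _) hzQ))⟩
    exact key _ (mul_mem hy hz) (mul_mem_of_relIndex_two (o.am.idx_two (hf.ad (3 : ℕ) 2)
      ((o.m.le_Q (hf.le 0 2 2)).trans (o.am.Q_le_E' (hf.ad _ _)))) hy hz
      (fun hm => hy' (key y hy hm)) fun hm => hz' (key z hz hm))
  have hA : AC M₁ M₂ b := by
    by_contra hA
    refine hx0 (o.mem_Q_of_fix hA hf n0 fun k h3 h4 => ?_)
    by_cases h5 : k = 0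
    · exact h5 ▸ hxE.2
    · exact o.h.le_G o.m (hf.le (b + 1) k b) le_rfl hx
  have n2 := o.h.nc_succ' hf 1 2 n1
  refine hA _ (hf.shift 2) (by simpa using n2) ?_
  simp only [add_zero]
  refine (o.h.Z_le_sup n2 (hf.ad 2 1) (hf.ad 2 3) (hf.ne' _ _)).trans
    (sup_le ?_ (o.m.le_Q (hf.le 3 (2 + b) (b - 1))))
  refine (o.h.Z_le_comm n0 (hf.ad 0 1) hxE hx0).trans (le_trans ?_ (o.m.V_le_Q (hf.le b (2 + b) 2)))
  exact (commutator_mono le_rfl (zpowers_le_of_mem (Z_le_V (hf.ad b (b + 1)) hx))).trans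
    (H7.commutator_le_right_of_le_normalizer ((o.h.le_G o.m (hf.le 0 b b)).trans (nV _)))

theorem shift (hf : Line f) (hc : ¬ Zv (f 0) ≤ Qv (f b)) :
    ∃ g, Line g ∧ (∀ k, 0 ≤ k → g k = f k) ∧ ¬ Zv (g (-2)) ≤ Qv (g (b - 2)) := by
  have hb := o.hb
  have n0 := o.n0 hf hc
  have n1 := o.h.nc_succ hf 0 1 n0
  have nb := o.odd f hf n0
  by_cases hA : AC M₁ M₂ b
  · refine ⟨f, hf, fun _ _ => rfl, ?_⟩
    have := hA _ (hf.shift (-2)) (by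
      simpa using o.h.nc_succ' hf (-1) (-2) (o.h.nc_succ hf 0 (-1) n0))
    simpa [neg_add_eq_sub] using this
  obtain ⟨s, hs, hsQ⟩ := SetLike.not_le_iff_exists.mp (o.critB hf hc)
  have hsE : s ∈ Ev (f 1) (f 2) :=
    o.am.Q_le_E' (hf.ad _ _) (o.m.le_Q (hf.le (b + 1) 2 (b - 1)) (by omega) hs)
  have hsV : zpowers s ≤ normalizer (Vv (f 1) : Set G) := zpowers_le_of_mem (nV _ hsE.1)
  obtain ⟨ρ, h1, e1, hV⟩ : ∃ ρ, Ad (f 0) ρ ∧ ρ ≠ f 1 ∧ ¬ Vv ρ ≤ Qv (f (b - 2)) := by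
    by_contra hcon
    push Not at hcon
    have key : ∀ ρ, Ad (f 0) ρ → ⁅Vv ρ, zpowers s⁆ ≤ Vv (f 1) := by
      intro ρ h1
      by_cases e1 : ρ = f 1
      · rw [e1]; exact H7.commutator_le_left_of_le_normalizer hsV
      have h2 := hcon ρ h1 e1
      have h3 : ∀ k : ℤ, 0 ≤ k → k ≤ b - 2 → Vv ρ ≤ Gv (f k) := fun k h3 h4 =>
        o.h.V_le_G o.m (Le.cons h1.symm (hf.le 0 k (b - 2)))
      have h4 : Vv ρ ≤ Qv (f (b - 1)) := fun x hx => by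
        have := o.mem_Q_of_fix hA (hf.rev (b - 1)) (by simpa using o.h.nc_succ' hf b (b - 1) nb)
          (x := x) fun k h5 h6 => by
            by_cases h7 : k = 0
            · simpa [h7] using o.am.Q_le_G (hf.ad (b - 2) (b - 1)) (h2 hx)
            · exact h3 _ (by omega) (by omega) hx
        simpa using this
      have h5 : Vv ρ ⊓ Qv (f b) ≤ Qv (f (b + 1)) := fun x hx => by
        have := o.mem_Q_of_fix hA (hf.rev (b + 1)) (by simpa using o.h.nc_succ' hf b (b + 1) nb)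
          (x := x) fun k h5 h6 => by
            by_cases h7 : k = 0
            · simpa [h7] using o.am.Q_le_G (hf.ad b (b + 1)) hx.2
            by_cases h8 : k = 1
            · simpa [h8] using Qv_le _ hx.2
            by_cases h9 : k = 2
            · exact (show f (b + 1 - k) = f (b - 1) from congrArg f (by omega)) ▸ Qv_le _ (h4 hx.1)
            · exact h3 _ (by omega) (by omega) hx.1
        simpa using this
      have h6 := le_sup_of_relIndex_two (o.am.idx_two (hf.ad b (b - 1))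
        (h4.trans (o.am.Q_le_E' (hf.ad _ _)))) (Z_le_V h1.symm) hc
      refine (commutator_mono h6 le_rfl).trans (H7.sup_commutator_le ?_
        ((o.h.le_G o.m (hf.le 0 1 1)).trans (nV _)) ?_ ?_)
      · exact inf_le_left.trans ((o.m.V_le_Q (Ad.le h1.symm)).trans
          ((o.am.Q_le_G (hf.ad 0 1)).trans (nV _)))
      · exact H7.commutator_le_of_le_centralizer (zpowers_le_of_mem (le_centralizer_iff.mp
          (h5.trans (o.h.c.Q_le_C _)) hs))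
      · exact (commutator_mono (Z_le_V (hf.ad 1 0)) le_rfl).trans
          (H7.commutator_le_left_of_le_normalizer hsV)
    have h2 : ⁅Wv (f 0), zpowers s⁆ ≤ Vv (f 1) := H7.iSup_commutator_le
      (fun ρ => (o.m.V_le_Q (Ad.le ρ.2.symm)).trans ((o.am.Q_le_G (hf.ad 0 1)).trans (nV _)))
      fun ρ => key ρ.1 ρ.2
    have h3 : Wv (f 0) = ⊥ := by
      refine o.am.eq_bot (hf.ad 0 1) ((W_le_iff.mpr fun ρ hρ => o.m.V_le_Q (Ad.le hρ.symm)).trans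
        (o.am.Q_le_E (hf.ad 0 1))) (nW _) ?_
      rw [← o.am.E_sup_of (hf.ad 1 0) (zpowers_le_of_mem hsE.1) fun hle =>
        hsQ ((o.am.E_inf (hf.ad 1 0) (hf.ad 1 2) (hf.ne' _ _)).le ⟨hle (mem_zpowers s), hsE⟩)]
      exact sup_le (inf_le_right.trans (nW _))
        (H7.le_normalizer_of_commutator_le le_rfl (h2.trans (V_le_W (hf.ad 0 1))))
    exact o.am.Z_ne_bot _ (eq_bot_iff.mpr (((Z_le_V (hf.ad 1 0)).trans (V_le_W (hf.ad 0 1))).trans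
      h3.le))
  rw [V_le_iff] at hV
  push Not at hV
  obtain ⟨δ, h2, hn⟩ := hV
  have e2 : δ ≠ f 0 := fun e => hn (e ▸ o.m.le_Q (hf.le 0 (b - 2) (b - 2)))
  obtain ⟨g, hg, e3, e4⟩ := o.am.modify_left hf 0 h1 (by simpa using e1)
  have e3' : g (-1) = ρ := e3
  obtain ⟨g', hg', e5, e6⟩ := o.am.modify_left hg (-1) (e3' ▸ h2)
    (by rw [show (-1 : ℤ) + 1 = 0 by omega, e4 0 le_rfl]; exact e2)
  refine ⟨g', hg', fun k hk => (e6 k (by omega)).trans (e4 k hk), ?_⟩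
  rwa [show g' (-2) = δ from e5, e6 _ (by omega), e4 _ (by omega)]

/-- facts on the commutator of the two critical involutions -/
theorem u_facts (hf : Line f) {t s : G} (ht : t ∈ Zv (f 0)) (htQ : t ∉ Qv (f b))
    (hs : s ∈ Zv (f (b + 1))) (hsQ : s ∉ Qv (f 1)) :
    ⁅t, s⁆ ∈ Vv (f 1) ∧ ⁅t, s⁆ ∈ Vv (f b) ∧ ⁅t, s⁆ ∉ Zv (f 1) ∧
      (∀ x ∈ Ev (f 1) (f 2), ⁅⁅t, s⁆, x⁆ ∈ Zv (f 1)) ∧
      (⁅t, s⁆ ∈ Zv (f 2) → V4 M₁ M₂) ∧ (V4 M₁ M₂ → ⁅t, s⁆ ∈ Zv (f 2)) := by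
  have hb := o.hb
  have n0 := o.n0 hf fun hle => htQ (hle ht)
  have n1 := o.h.nc_succ hf 0 1 n0
  have hsE : s ∈ Ev (f 1) (f 2) :=
    o.am.Q_le_E' (hf.ad _ _) (o.m.le_Q (hf.le (b + 1) 2 (b - 1)) (by omega) hs)
  obtain ⟨k1, k2, k3⟩ := o.h.u_loc o.q2 n1 (o.ne _ n1) (o.h.V_comm o.m (le_refl' _)) (hf.ad 1 0)
    (hf.ad 1 2) (hf.ne' _ _) ht (fun hm => htQ (o.m.le_Q (hf.le 1 b (b - 1)) (by omega) hm)) hsE hsQ
  have k4 : ⁅t, s⁆ ∈ Vv (f 1) := H7.commutator_le_left_of_le_normalizer (nV _)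
    (commutator_mem_commutator (Z_le_V (hf.ad 1 0) ht) hsE.1)
  have k5 : ⁅t, s⁆ ∈ Vv (f b) := H7.commutator_le_right_of_le_normalizer (nV _)
    (commutator_mem_commutator (o.h.le_G o.m (hf.le 0 b b) le_rfl ht) (Z_le_V (hf.ad b (b + 1)) hs))
  refine ⟨k4, k5, k1, k2, fun hm => o.h.v4_of_one n1 (hf.ad 1 0) (hf.ad 1 2) (hf.ne' _ _) (k3 hm),
    fun h4 => ?_⟩
  by_contra hn
  have z2 : Zv (f 2) ≤ Qv (f b) := o.m.le_Q (hf.le 2 b (b - 2))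
  have := mul_mem_of_relIndex_two (o.h.idxV o.q2 h4 n1 (o.m.V_le_Q (le_refl' _)) (hf.ad 1 2))
    (Z_le_V (hf.ad 1 0) ht) k4 (fun hm => htQ (z2 hm)) hn
  exact htQ ((mul_mem_cancel_right (o.m.V_le_Q (le_refl' _) (by omega) k5)).mp (z2 this))

theorem mid (hb5 : 5 ≤ b) (hf : Line f) (hc : ¬ Zv (f (-2)) ≤ Qv (f (b - 2))) {u : G}
    (h1 : u ∈ Vv (f 1)) (h2 : u ∈ Zv (f (b - 1))) : u ∈ Zv (f (b - 2)) := by
  obtain ⟨r, hr, hrQ⟩ := SetLike.not_le_iff_exists.mp hc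
  have hc' : ¬ Zv (f (-2 + 0)) ≤ Qv (f (-2 + b)) := by simpa [neg_add_eq_sub] using hc
  have nb : ¬ NC (f (b - 2)) := by
    simpa [neg_add_eq_sub] using o.odd _ (hf.shift (-2)) (o.n0 (hf.shift (-2)) hc')
  exact o.h.mem_Z_of_swap nb (o.ne _ nb) (hf.ad _ (b - 1)) (hf.ad _ (b - 3)) (hf.ne' _ _) h2
    (o.am.Q_le_E' (hf.ad _ _) (o.m.le_Q (hf.le (-2) (b - 3) (b - 1)) (by omega) hr)) hrQ
    (o.h.Z_le_CV o.m (hf.le (-2) 1 3) (by omega) hr u h1).symm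

theorem v4_mid (hb5 : 5 ≤ b) (h4 : V4 M₁ M₂) (hf : Line f) (hc : ¬ Zv (f (-2)) ≤ Qv (f (b - 2)))
    {t s : G} (ht : t ∈ Zv (f 0)) (htQ : t ∉ Qv (f b)) (hs : s ∈ Zv (f (b + 1)))
    (hsQ : s ∉ Qv (f 1)) : ⁅t, s⁆ ∈ Zv (f (b - 2)) := by
  refine o.mid hb5 hf hc (o.u_facts hf ht htQ hs hsQ).1 ?_
  have := (o.u_facts (hf.rev (b + 1)) (t := s) (s := t) (by simpa using hs) (by simpa using hsQ)
    (by simpa using ht) (by simpa using htQ)).2.2.2.2.2 h4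
  rw [← commutatorElement_inv, inv_mem_iff] at this
  exact (show f (b + 1 - 2) = f (b - 1) from congrArg f (by omega)) ▸ this

theorem exists_line2 : ∃ f : ℤ → CosetVertex M₁ M₂, Line f ∧ ¬ Zv (f 0) ≤ Qv (f b) ∧
    ¬ Zv (f 2) ≤ Qv (f (b + 2)) := by
  obtain ⟨f, hf, hc⟩ := o.ex
  obtain ⟨g, hg, e, hc'⟩ := o.shift hf hc
  refine ⟨_, hg.shift (-2), by simpa [neg_add_eq_sub] using hc', ?_⟩
  have e1 : g (-2 + 2) = f 0 := e 0 le_rfl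
  have e2 : g (-2 + (b + 2)) = f b := (congrArg g (by omega)).trans (e b (by omega))
  simp only [e1, e2]
  exact hc

theorem not_big4 (hb7 : 7 ≤ b) (h4 : V4 M₁ M₂) : False := by
  obtain ⟨f, hf, c0, c2⟩ := o.exists_line2
  obtain ⟨g, hg, e, c1⟩ := o.shift hf c0
  have hg' := hg.shift (-2)
  obtain ⟨l, hl, e', c3⟩ := o.shift hg' (by simpa [neg_add_eq_sub] using c1)
  have d0 : ¬ Zv (l 0) ≤ Qv (l b) := by
    rw [e' 0 le_rfl, e' b (by omega)]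
    simpa [neg_add_eq_sub] using c1
  have e'' : ∀ k, 2 ≤ k → l k = f (k - 2) := fun k hk =>
    (e' k (by omega)).trans ((congrArg g (by omega)).trans (e (k - 2) (by omega)))
  have d2 : ¬ Zv (l (2 + 0)) ≤ Qv (l (2 + b)) := by
    rw [e'' _ (by omega), e'' _ (by omega)]
    simpa using c0
  have d4 : ¬ Zv (l 4) ≤ Qv (l (b + 4)) := by
    rw [e'' _ (by omega), e'' _ (by omega), show (b : ℤ) + 4 - 2 = b + 2 by omega]
    exact c2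
  obtain ⟨t, ht, htQ⟩ := SetLike.not_le_iff_exists.mp d0
  obtain ⟨s, hs, hsQ⟩ := SetLike.not_le_iff_exists.mp (o.critB hl d0)
  have k1 := o.v4_mid (by omega) h4 hl c3 ht htQ hs hsQ
  have k2 := o.v4_mid (by omega) h4 (hl.rev (b + 1)) (t := s) (s := t)
    (by convert o.critB (hl.shift 2) d2 using 4 <;> omega) (by simpa using hs) (by simpa using hsQ)
    (by simpa using ht) (by simpa using htQ)
  rw [← commutatorElement_inv, inv_mem_iff,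
    show l (b + 1 - (b - 2)) = l 3 from congrArg l (by omega)] at k2
  have n0 := o.n0 hl d0
  have n3 := o.h.nc_succ hl 2 3 (o.h.nc_succ' hl 1 2 (o.h.nc_succ hl 0 1 n0))
  refine d4 ((o.h.Z_le_sup (o.h.nc_succ' hl 3 4 n3) (hl.ad 4 3) (hl.ad 4 5) (hl.ne' _ _)).trans
    (sup_le ?_ (o.m.le_Q (hl.le 5 (b + 4) (b - 1)))))
  exact o.h.Z_le_of_mem o.q2 n3 k2 (fun e => (o.u_facts hl ht htQ hs hsQ).2.2.1 (e ▸ one_mem _))
    (o.m.le_Q (hl.le (b - 2) (b + 4) 6) (by omega) k1)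

theorem not_big8 (hb5 : 5 ≤ b) (h4 : ¬ V4 M₁ M₂) : False := by
  obtain ⟨f, hf, c0, c2⟩ := o.exists_line2
  have hq := o.q2
  have h := o.h
  have c3 : ¬ Zv (f (b + 3)) ≤ Qv (f 3) := by
    convert o.critB (hf.shift 2) (by simpa [add_comm] using c2) using 4 <;> omega
  obtain ⟨t, ht, htQ⟩ := SetLike.not_le_iff_exists.mp c0
  obtain ⟨s, hs, hsQ⟩ := SetLike.not_le_iff_exists.mp (o.critB hf c0)
  obtain ⟨r, hr, hrQ⟩ := SetLike.not_le_iff_exists.mp c3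
  obtain ⟨u1, ub, -, uc, u2, -⟩ := o.u_facts hf ht htQ hs hsQ
  have u2' := mt u2 h4
  generalize ⁅t, s⁆ = u at u1 ub uc u2'
  have n0 := o.n0 hf c0
  have n1 := h.nc_succ hf 0 1 n0
  have n2 := h.nc_succ' hf 1 2 n1
  have n3 := h.nc_succ hf 2 3 n2
  have a21 := hf.ad 2 1
  have a23 := hf.ad 2 3
  have a32 := hf.ad 3 2
  have a34 := hf.ad 3 4
  have e13 : f 1 ≠ f 3 := hf.ne' _ _
  have e24 : f 2 ≠ f 4 := hf.ne' _ _
  have uu : u * u = 1 := sq_eq_one_of_ea (h.ea_V o.m o.hb _) u1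
  have uQ2 : u ∈ Qv (f 2) := o.m.V_le_Q (hf.le 1 2 1) (by omega) u1
  let M := Gv (f 3) ⊓ centralizer {u}
  have k1 : M ⊓ Qv (f 3) ≤ Qv (f 2) := by
    rintro x ⟨⟨-, hxu⟩, hx3⟩
    by_contra hx2
    have hxE : x ∈ Ev (f 2) (f 3) := o.am.Q_le_E' a23 hx3
    refine u2' (h.mem_Z_of_comm2 n2 a21 (o.am.adj_smul a21 hxE.1)
      (o.am.smul_ne a23 a21 e13 hxE hx2).symm uQ2 uu (fun y hy => uc y (Ev_comm (f 2) _ ▸ hy))
      fun y hy => ?_)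
    rw [← show x • f 2 = f 2 from hxE.1, Ev_smul, mem_cj] at hy
    have := uc _ (Ev_comm (f 2) _ ▸ hy)
    rw [Zv_smul, mem_cj]
    have hxu' : x⁻¹ * u * x = u := by
      rw [mul_assoc, ← mem_centralizer_singleton_iff.mp hxu, inv_mul_cancel_left]
    rwa [show x⁻¹ * ⁅u, y⁆ * x = ⁅x⁻¹ * u * x, x⁻¹ * y * x⁆ by
      simp only [commutatorElement_def]; group, hxu']
  have i1 : (centralizer {u}).relIndex (Qv (f 2)) ∣ 2 := by
    refine relIndex_dvd_two_of_forall fun x hx y hy hx' hy' => ?_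
    have key : ∀ x ∈ Qv (f 2), ⁅u, x⁆ ∈ Zv (f 1) := fun x hx => uc x (o.am.Q_le_E' a21.symm hx)
    have key' : ∀ x, x ∉ centralizer {u} → ⁅u, x⁆ ∉ (⊥ : Subgroup G) := fun x hx hm =>
      hx (mem_centralizer_singleton_iff.mpr
        (commutatorElement_eq_one_iff_mul_comm.mp (mem_bot.mp hm)).symm)
    have h1 := mul_mem_of_relIndex_two (X := ⊥) (by rw [relIndex_bot_left, h.card_Zρ hq n1])
      (key x hx) (key y hy) (key' x hx') (key' y hy')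
    have h2 : ⁅u, y⁆ * x = x * ⁅u, y⁆ := h.G_le_C n1 (o.am.Q_le_G a21 hx) _ (key y hy)
    rw [mem_centralizer_singleton_iff, eq_comm, ← commutatorElement_eq_one_iff_mul_comm,
      show ⁅u, x * y⁆ = ⁅u, x⁆ * (x * ⁅u, y⁆ * x⁻¹) by simp only [commutatorElement_def]; group,
      ← h2, mul_inv_cancel_right]
    exact h1
  have k2 : ¬ Qv (f 2) ⊓ centralizer {u} ≤ Qv (f 3) := fun hle => by
    have h1 : Qv (f 2) ⊓ Qv (f 3) ≤ centralizer {u} := by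
      by_contra hn
      exact h.c.Q_not_le a23 ((le_sup_of_relIndex_two i1 inf_le_left hn).trans
        (sup_le hle inf_le_right))
    obtain ⟨y, hy, hyQ⟩ := SetLike.not_le_iff_exists.mp ((o.am.loc (f 2)).not_le_Q (o.am.syl a21))
    refine hsQ (h.en_of_one a23 (o.am.adj_smul a23 hy.1) (o.am.smul_ne a21 a23 e13.symm hy hyQ).symm
      ?_ _ _ a23 a21 ⟨hle ⟨?_, ?_⟩, ?_⟩)
    · rintro p ⟨hp3, hp2⟩
      rw [Qv_smul, mem_cj]
      have hp' : y⁻¹ * p * y ∈ Qv (f 2) := by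
        simpa using (mem_normalizer_iff.mp (nQ _ (inv_mem hy.1)) p).mp hp2
      refine hle ⟨hp', mem_centralizer_singleton_iff.mpr ?_⟩
      have h2 := uc y (Ev_comm (f 2) _ ▸ hy)
      have h3 : ⁅u, y⁆ * p = p * ⁅u, y⁆ := h.G_le_C n1 (o.am.Q_le_G a21 hp2) _ h2
      have h4 : p * u = u * p := mem_centralizer_singleton_iff.mp (h1 ⟨hp2, hp3⟩)
      have h5 : y * u * y⁻¹ = ⁅u, y⁆⁻¹ * u := by simp only [commutatorElement_def]; group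
      have h6 : ⁅u, y⁆⁻¹ * p = p * ⁅u, y⁆⁻¹ := (Commute.inv_left h3)
      calc y⁻¹ * p * y * u = y⁻¹ * (p * (y * u * y⁻¹)) * y := by group
        _ = y⁻¹ * ((y * u * y⁻¹) * p) * y := by
          rw [h5, ← mul_assoc p, ← h6, mul_assoc _ p, h4, ← mul_assoc _ u]
        _ = u * (y⁻¹ * p * y) := by group
    · exact o.m.le_Q (hf.le (b + 1) 2 (b - 1)) (by omega) hs
    · exact mem_centralizer_singleton_iff.mpr
        (h.V_comm o.m (le_refl' (f b)) (by omega) ub s (Z_le_V (hf.ad b (b + 1)) hs))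
    · exact o.m.le_Q (hf.le (b + 1) 2 (b - 1)) (by omega) hs
  have hrE : r ∈ Ev (f 3) (f 4) :=
    o.am.Q_le_E' a34 (o.m.le_Q (hf.le (b + 3) 4 (b - 1)) (by omega) hr)
  have k3 : Qv (f 3) ⊔ M = Gv (f 3) := by
    refine le_antisymm (sup_le (Qv_le _) inf_le_left) (o.am.le_of_two a32 a34 e24 ?_ ?_)
    · rw [← o.am.Q_sup a32 (inf_le_left.trans (o.am.Q_le_E' a32)) k2]
      exact sup_le_sup_left (inf_le_inf_right _ (o.am.Q_le_G a23)) _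
    · rw [← o.am.Q_sup a34 (zpowers_le_of_mem hrE) fun hle => hrQ (hle (mem_zpowers r))]
      exact sup_le_sup_left (zpowers_le_of_mem (mem_inf.mpr ⟨hrE.1, mem_centralizer_singleton_iff.mpr
        (h.Z_le_CV o.m (hf.le (b + 3) b 3) (by omega) hr u ub).symm⟩)) _
  have k4 : ∀ c, Ad (f 3) c → ∃ m ∈ M, m • f 2 = c := fun c hc => by
    obtain ⟨g, hg, rfl⟩ := cg_neighbours_transitive a32 hc
    rw [← Gv, ← k3, sup_comm] at hg
    obtain ⟨m, hm, q, hq, rfl⟩ :=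
      (H7.mem_sup_of_le_normalizer (inf_le_left.trans (nQ (f 3)))).mp hg
    exact ⟨m, hm, by rw [mul_smul, show q • f 2 = f 2 from o.am.Q_le_G a32 hq]⟩
  have k5 : ∀ c, Ad (f 3) c → M ⊓ Qv (f 3) ≤ Qv c := fun c hc x hx => by
    obtain ⟨m, hm, rfl⟩ := k4 c hc
    rw [Qv_smul, mem_cj]
    have hm1 : m ∈ Gv (f 3) := hm.1
    exact k1 (mem_inf.mpr ⟨mul_mem (mul_mem (inv_mem hm) (mem_inf.mp hx).1) hm,
      by simpa using (mem_normalizer_iff.mp (nQ _ (inv_mem hm1)) x).mp hx.2⟩)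
  have hEN : ∀ c c', Ad (f 3) c → Ad (f 3) c' → c ≠ c' → ¬ Qv c ⊓ Qv (f 3) ≤ Qv c' :=
    fun c c' h1 h2 e hle => o.ne _ n3 (h.en_of_one h1 h2 e hle)
  have k6 : ∀ c, Ad (f 3) c → (∀ y ∈ Qv c ⊓ Qv (f 3), y ∉ M → ⁅u, y⁆ ∈ Zv c ∧ ⁅u, y⁆ ∉ Zv (f 3)) ∧
      ∀ x ∈ Qv c ⊓ Qv (f 3), ∀ y ∈ Qv c ⊓ Qv (f 3), x ∉ M → y ∉ M → x * y ∈ M := by
    intro c hc
    obtain ⟨m, hm, rfl⟩ := k4 c hc
    have hm3 : m • f 3 = f 3 := hm.1
    have hmu : m⁻¹ * u * m = u := by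
      rw [mul_assoc, ← mem_centralizer_singleton_iff.mp hm.2, inv_mul_cancel_left]
    have hM : ∀ y, y ∉ M → m⁻¹ * y * m ∉ M := fun y hy hm' =>
      hy ((mul_mem_cancel_left (inv_mem hm)).mp ((mul_mem_cancel_right hm).mp hm'))
    have hQ : ∀ y ∈ Qv (m • f 2) ⊓ Qv (f 3), m⁻¹ * y * m ∈ Qv (f 2) ⊓ Qv (f 3) := fun y hy => by
      rwa [← hm3, Qv_smul, Qv_smul, ← H7.cj_inf, mem_cj] at hy
    refine ⟨fun y hy hy' => ?_, fun x hx y hy hx' hy' => ?_⟩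
    · have h1 := uc _ (o.am.Q_le_E' a21.symm (hQ y hy).1)
      rw [← hm3, Zv_smul, Zv_smul, mem_cj, mem_cj, show m⁻¹ * ⁅u, y⁆ * m =
        ⁅m⁻¹ * u * m, m⁻¹ * y * m⁆ by simp only [commutatorElement_def]; group, hmu]
      refine ⟨h.Z_le_Z n1 a21.symm h1, fun h2 => hM y hy' ⟨Qv_le _ (hQ y hy).2, ?_⟩⟩
      have : ⁅u, m⁻¹ * y * m⁆ ∈ (⊥ : Subgroup G) := h.Z_disj n2 a21 a23 e13 ▸ ⟨h1, h2⟩
      exact mem_centralizer_singleton_iff.mpr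
        (commutatorElement_eq_one_iff_mul_comm.mp (mem_bot.mp this)).symm
    · by_contra hn
      refine hM _ hn ⟨Qv_le _ (hQ _ (mul_mem hx hy)).2, ?_⟩
      rw [show m⁻¹ * (x * y) * m = (m⁻¹ * x * m) * (m⁻¹ * y * m) by group]
      exact mul_mem_of_relIndex_two i1 (hQ x hx).1 (hQ y hy).1
        (fun h1 => hM x hx' ⟨Qv_le _ (hQ x hx).2, h1⟩) fun h1 => hM y hy' ⟨Qv_le _ (hQ y hy).2, h1⟩
  have k7 : ∀ c c', Ad (f 3) c → Ad (f 3) c' → c ≠ c' → ∀ x ∈ Qv c ⊓ Qv (f 3), x ∉ M →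
      x ∉ Qv c' := fun c c' h1 h2 e x hx hx' hxc => by
    refine hEN c c' h1 h2 e fun y hy => ?_
    by_cases hyM : y ∈ M
    · exact k5 c' h2 ⟨hyM, hy.2⟩
    · exact (mul_mem_cancel_left hxc).mp
        (k5 c' h2 ⟨(k6 c h1).2 x hx y hy hx' hyM, mul_mem hx.2 hy.2⟩)
  obtain ⟨c, a3c, e1, e2⟩ := o.am.exists_third a32 a34 e24
  obtain ⟨x, hx, hx4⟩ := SetLike.not_le_iff_exists.mp (hEN _ _ a32 a34 e24)
  obtain ⟨y, hy, hy2⟩ := SetLike.not_le_iff_exists.mp (hEN _ _ a34 a32 e24.symm)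
  have hxM : x ∉ M := fun hm => hx4 (k5 _ a34 ⟨hm, hx.2⟩)
  have hyM : y ∉ M := fun hm => hy2 (k5 _ a32 ⟨hm, hy.2⟩)
  have hxy : y * x ∈ Qv c ⊓ Qv (f 3) := ⟨(o.am.loc c).mul_mem_Q (o.am.syl a3c.symm)
    (o.am.Q_le_E' a3c.symm hy.2) (o.am.Q_le_E' a3c.symm hx.2) (k7 _ _ a34 a3c e2.symm y hy hyM)
    (k7 _ _ a32 a3c e1.symm x hx hxM), mul_mem hy.2 hx.2⟩
  obtain ⟨w1, w2⟩ := (k6 c a3c).1 _ hxy fun hm =>
    hy2 ((mul_mem_cancel_right (mem_inf.mp hx).1).mp (k5 _ a32 (mem_inf.mpr ⟨hm, hxy.2⟩)))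
  refine h4 (h.v4_of_one n3 a32 a34 e24 (V_le_iff.mpr fun c' hc' => ?_))
  rcases o.am.eq_of_three a32 a34 a3c e24.symm e1 e2.symm hc' with rfl | rfl | rfl
  · exact le_sup_left
  · exact le_sup_right
  refine (h.Z_le_sup_zpowers hq n3 a3c w1 w2).trans
    (sup_le ((h.Z_le_Z n3 a32).trans le_sup_left) (zpowers_le_of_mem ?_))
  rw [show ⁅u, y * x⁆ = ⁅u, y⁆ * (y * ⁅u, x⁆ * y⁻¹) by simp only [commutatorElement_def]; group]
  exact mul_mem (mem_sup_right ((k6 _ a34).1 y hy hyM).1) (mem_sup_left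
    ((mem_normalizer_iff.mp (nZ _ (o.am.Q_le_G a32 hy.2)) _).mp ((k6 _ a32).1 x hx hxM).1))

end S3O

end Cfsg.H9
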